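import Mathlib
import Cfsg.Agent.Lib.Wl7.Defs
import Cfsg.Prelude.Def_Spor_Mathieu

/-! The normaliser of `11^(1+2)` is maximal in `SL₁₁(q)`: vocabulary.  See `plans/WL11.md`. -/

set_option autoImplicit false

namespace CfsgLib.Wl11

open Matrix Subgroup Cfsg Cfsg.Geo CfsgLib.Asch
open CfsgLib.Wl7 (mem3 closure3_le)
open scoped commutatorElement MatrixGroups

variable {F : Type*} [Field F]

/-- a Heisenberg pair -/
structure HP11 {ι : Type} [Fintype ι] [DecidableEq ι] (ζ : Fˣ) (x y : GL ι F) : Prop where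
  prim : IsPrimitiveRoot (ζ : F) 11
  x11 : x ^ 11 = 1
  y11 : y ^ 11 = 1
  comm : x * y = sc ι ζ * (y * x)
  env_top : env (closure {x, y}) = ⊤

abbrev M11x (F : Type*) : Type _ := Matrix (Fin 11) (Fin 11) F

def X11 (ζ : F) : M11x F := diagonal fun i => ζ ^ (i : ℕ)

def Y11 (F : Type*) [Field F] : M11x F := of fun i j => if i = j + 1 then 1 else 0

def U11 (ζ : F) : M11x F := diagonal fun j => ζ ^ ((6 * j * j : Fin 11) : ℕ)

def F11 (ζ : F) : M11x F := of fun i j => ζ ^ ((i * j : Fin 11) : ℕ)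

def Z11 (F : Type*) [Field F] : M11x F := of fun i j => if i + j = 0 then 1 else 0

def T11 (F : Type*) [Field F] : M11x F := of fun i j => if i = 3 * j then 1 else 0

/-- the Gauss sum, a square root of `-11` -/
def gs (ζ : F) : F := 1 + 2 * (ζ ^ 2 + ζ ^ 6 + ζ ^ 7 + ζ ^ 8 + ζ ^ 10)

/-- the standard generators of `11^(1+2) : SL₂(11)` -/
structure Std (ζ : Fˣ) (x y u s t z : GL (Fin 11) F) : Prop where
  prim : IsPrimitiveRoot (ζ : F) 11
  ex : x.1 = X11 (ζ : F)
  ey : y.1 = Y11 F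
  eu : u.1 = U11 (ζ : F)
  es : gs (ζ : F) • s.1 = -F11 (ζ : F)
  et : t.1 = T11 F
  ez : z.1 = -Z11 F

/-- relations that hold in `SL₂(11)` -/
structure Rel {G : Type*} [Group G] (a b c z : G) : Prop where
  a11 : a ^ 11 = 1
  c5 : c ^ 5 = 1
  ca : c * a * c⁻¹ = a ^ 5
  bc : b * c * b⁻¹ = c⁻¹
  bb : b * b = z
  zz : z * z = 1
  ab : (a * b) ^ 3 = 1
  q8 : (b * a ^ 3 * b * a ^ 8) ^ 2 = z
  za : z * a = a * z
  zc : z * c = c * z

/-- the two-elements of the centraliser of `z` in `H` are those of `SL₂(11)`, up to central elements -/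
def Good {G : Type*} [Group G] (H : Subgroup G) (z : G) : Prop :=
  ∃ D : Subgroup G, z ∈ D ∧ (∀ d ∈ D, ∀ e ∈ H, e * z = z * e → d * e = e * d) ∧
    (∀ d ∈ D, d * d = 1 → d = 1 ∨ d = z) ∧
    ∀ e ∈ H, e * z = z * e → e ^ 4 = 1 → e ∈ D ∨ ∃ k ∈ H, k * k = z ∧ k⁻¹ * e ∈ D

/-- what is used about the field -/
structure Fld (F : Type*) [Field F] : Prop where
  two : (2 : F) ≠ 0
  nsq : ∀ q : ℕ, Nat.card F ≠ q ^ 2
  gen : ∀ F₀ : Subfield F, 11 ∣ Nat.card F₀ ^ 2 - 1 → F₀ = ⊤

/-- the image modulo scalars -/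
abbrev Bar5 (P : Subgroup (GL (Fin 5) F)) : Type _ := P ⧸ (scalars (Fin 5) F).subgroupOf P

/-- what is used of the classification of the residual class in dimension five -/
def Res5 (F : Type*) [Field F] : Prop :=
  (2 : F) ≠ 0 → ∀ H : Subgroup (GL (Fin 5) F), IsMaximalIn (specialLinear (Fin 5) F) H → InLinearResidualClass H →
    ∃ P, IsResidualCore H P ∧ (Nat.card (Bar5 P) = 660 ∨ Spor.IsoM11 (Bar5 P) ∨ Nat.card (Bar5 P) = 25920)

abbrev I11 : Type := Fin 5 ⊕ Fin 6

abbrev P56 (F : Type*) [Field F] : Type _ := GL (Fin 5) F × GL (Fin 6) F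

/-- block diagonal matrices -/
def bd : P56 F →* GL I11 F where
  toFun g := ⟨fromBlocks g.1.1 0 0 g.2.1, fromBlocks (g.1⁻¹).1 0 0 (g.2⁻¹).1,
    by simp [fromBlocks_multiply], by simp [fromBlocks_multiply]⟩
  map_one' := Units.ext (by simp)
  map_mul' a b := Units.ext (by simp [fromBlocks_multiply])

/-- the centraliser of `z` -/
structure Emb (ζ : Fˣ) (u s t z : GL (Fin 11) F) (ε : P56 F →* GL (Fin 11) F) (a b c : P56 F) : Prop where
  inj : Function.Injective ε
  det : ∀ g, (ε g).1.det = g.1.1.det * g.2.1.det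
  cent : ∀ g : GL (Fin 11) F, g * z = z * g → ∃ e, ε e = g
  ez : ε (1, -1) = z
  ea : ε a = u
  eb : ε b = s
  ec : ε c = t
  env5 : env (closure {a.1, c.1}) = ⊤
  env6 : env (closure {a.2, b.2, c.2}) = ⊤
  tr : a.1.1.trace ≠ (a.1⁻¹).1.trace
  dg : ∃ d : Fin 5 → F, Function.Injective d ∧ a.1.1 = diagonal d
  ew : (2 : F) • (ε (a.1, 1)).1 = 1 + Z11 F + U11 (ζ : F) * (1 - Z11 F)

variable {G G' : Type*} [Group G] [Group G'] {a b c z : G}

theorem Rel.map (h : Rel a b c z) (f : G →* G') : Rel (f a) (f b) (f c) (f z) where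
  a11 := by rw [← map_pow, h.a11, map_one]
  c5 := by rw [← map_pow, h.c5, map_one]
  ca := by rw [← map_pow, ← h.ca]; simp
  bc := by rw [← map_inv f c, ← h.bc]; simp
  bb := by rw [← map_mul, h.bb]
  zz := by rw [← map_mul, h.zz, map_one]
  ab := by rw [← map_mul, ← map_pow, h.ab, map_one]
  q8 := by rw [← h.q8]; simp
  za := by rw [← map_mul, h.za, map_mul]
  zc := by rw [← map_mul, h.zc, map_mul]

theorem Rel.of_map {f : G →* G'} (hf : Function.Injective f) (h : Rel (f a) (f b) (f c) (f z)) : Rel a b c z where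
  a11 := hf (by simpa using h.a11)
  c5 := hf (by simpa using h.c5)
  ca := hf (by simpa using h.ca)
  bc := hf (by simpa using h.bc)
  bb := hf (by simpa using h.bb)
  zz := hf (by simpa using h.zz)
  ab := hf (by simpa using h.ab)
  q8 := hf (by simpa using h.q8)
  za := hf (by simpa using h.za)
  zc := hf (by simpa using h.zc)

/-- `K = ⟨a, b, c⟩` is the normal closure of `a` -/
theorem Rel.nc (h : Rel a b c z) {M : Subgroup G} (ha : a ∈ M)
    (hn : ∀ k ∈ closure {a, b, c}, ∀ m ∈ M, k * m * k⁻¹ ∈ M) : closure {a, b, c} ≤ M := by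
  obtain ⟨-, mb, mc⟩ := mem3 a b c
  have b3 : b ^ 3 ∈ M := by
    have e : b ^ 3 = (a * (b * a * b⁻¹) * (b * (b * a * b⁻¹) * b⁻¹))⁻¹ * (a * b) ^ 3 := by
      rw [pow_succ (a * b) 2, pow_two]; group
    rw [e, h.ab, mul_one]
    exact inv_mem (mul_mem (mul_mem ha (hn b mb a ha)) (hn b mb _ (hn b mb a ha)))
  have hb : b ∈ M := by
    have e : b = (b ^ 3)⁻¹ * (b * b * (b * b)) := by simp only [pow_succ, pow_zero]; group
    rw [e, h.bb, h.zz, mul_one]
    exact inv_mem b3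
  refine closure3_le ha hb ?_
  have c2 : c * c ∈ M := by
    have e2 : c * c = (c * b * c⁻¹) * b⁻¹ := by
      have := h.bc
      calc c * c = c * (b * c * b⁻¹)⁻¹ := by rw [this, inv_inv]
        _ = _ := by group
    rw [e2]
    exact mul_mem (hn c mc b hb) (inv_mem hb)
  have e : c = (c * c) ^ 3 * (c ^ 5)⁻¹ := by simp only [pow_succ, pow_zero]; group
  rw [e, h.c5, inv_one, mul_one]
  exact pow_mem c2 3

theorem Rel.perfect (h : Rel a b c z) : ⁅closure {a, b, c}, closure {a, b, c}⁆ = closure ({a, b, c} : Set G) := by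
  obtain ⟨ma, -, mc⟩ := mem3 a b c
  refine le_antisymm (commutator_le.2 fun x hx y hy => mul_mem (mul_mem (mul_mem hx hy) (inv_mem hx)) (inv_mem hy))
    (h.nc ?_ fun k hk m hm => ?_)
  · have := pow_mem (commutator_mem_commutator mc ma) 3
    rwa [commutatorElement_def, h.ca, pow_succ a 4, mul_inv_cancel_right, ← pow_mul, pow_succ a 11, h.a11,
      one_mul] at this
  · have := commutator_mem_commutator hk (commutator_le.2 (fun x hx y hy =>
      mul_mem (mul_mem (mul_mem hx hy) (inv_mem hx)) (inv_mem hy)) hm)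
    rw [show k * m * k⁻¹ = ⁅k, m⁆ * m by rw [commutatorElement_def]; group]
    exact mul_mem this hm

theorem Rel.zmem (h : Rel a b c z) : z ∈ closure {a, b, c} := h.bb ▸ mul_mem (mem3 a b c).2.1 (mem3 a b c).2.1

theorem Rel.cent (h : Rel a b c z) : closure {a, b, c} ≤ centralizer {z} :=
  closure3_le (mem_centralizer_singleton_iff.2 h.za.symm)
    (mem_centralizer_singleton_iff.2 (by rw [← h.bb, mul_assoc])) (mem_centralizer_singleton_iff.2 h.zc.symm)

end CfsgLib.Wl11
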