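import Mathlib
import Cfsg.Agent.Lib.Wl11.Defs
import Cfsg.Agent.Lib.Asch.Linear
import Cfsg.Agent.Lib.Asch.UnitaryA
import Cfsg.Prelude.Def_KGroupFacts

/-! Overgroups of `L₂(11)` in `GL₅(q)`: tools.  See `plans/WL11.md`. -/

set_option autoImplicit false

namespace CfsgLib.Wl11

open Matrix Subgroup Cfsg Cfsg.Geo CfsgLib.Asch
open scoped commutatorElement MatrixGroups

universe u v

theorem no_cover {Y : Type v} {S : Type u} [Group Y] [Finite Y] [Group S] (hY : commutator Y = ⊤) (σ : Y →* S)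
    (hs : Function.Surjective σ) (hc : ∀ d, σ d = 1 → d ∈ center Y) {n : ℕ} (hn : Odd n)
    (hm : HasCyclicSchurMultiplier S n) {z : Y} (hz : σ z = 1) (hzz : z * z = 1) : z = 1 := by
  let e : Shrink.{u} Y ≃* Y := Shrink.mulEquiv
  have : Finite (Shrink.{u} Y) := Finite.of_equiv _ e.symm.toEquiv
  obtain ⟨π, hπ⟩ := hm.2 (Shrink.{u} Y) (σ.comp e.toMonoidHom) ⟨hs.comp e.surjective,
    fun d hd => mem_center_iff.2 fun g => e.injective (by
      rw [map_mul, map_mul]; exact mem_center_iff.1 (hc _ hd) _), fun d _ => by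
    have : (commutator Y).map e.symm.toMonoidHom = commutator (Shrink.{u} Y) := by
      rw [commutator_def, map_commutator, ← MonoidHom.range_eq_map, MonoidHom.range_eq_top.2 e.symm.surjective,
        commutator_def]
    exact this ▸ ⟨e d, hY ▸ mem_top _, e.symm_apply_apply d⟩⟩
  obtain ⟨t, ht⟩ := hπ ⟨e.symm z, by simpa using hz⟩
  have tn : t ^ n = 1 := by
    have := pow_card_eq_one' (x := t)
    rwa [Nat.card_congr Multiplicative.toAdd, Nat.card_zmod] at this
  have := congrArg (fun x : (σ.comp e.toMonoidHom).ker => e x) ((map_pow π t n).symm.trans (by rw [tn, map_one]))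
  simp only [ht, Subgroup.coe_pow, map_pow, MulEquiv.apply_symm_apply, Subgroup.coe_one, map_one] at this
  exact (pow_eq_one_iff_of_coprime (Nat.coprime_two_right.2 hn)).1 ⟨this, (pow_two z).trans hzz⟩

variable {F : Type u} [Field F] {Y : Type v} [Group Y]

/-- the data in dimension five -/
structure Hy (a z : Y) (ρ : Y →* GL (Fin 5) F) : Prop where
  two : (2 : F) ≠ 0
  nsq : ∀ q : ℕ, Nat.card F ≠ q ^ 2
  z1 : ρ z = 1
  cen : ∀ d, ρ d ∈ scalars (Fin 5) F → d ∈ center Y
  tr : (ρ a).1.trace ≠ ((ρ a)⁻¹).1.trace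
  env : env ρ.range = ⊤
  nrm : ∀ N, Nrm ρ.range N → ¬ N ≤ scalars (Fin 5) F → ρ.range ≤ N

variable {a z : Y} {ρ : Y →* GL (Fin 5) F}

theorem range_perfect {G : Type*} [Group G] (hY : commutator Y = ⊤) (ρ : Y →* G) : ⁅ρ.range, ρ.range⁆ = ρ.range := by
  rw [MonoidHom.range_eq_map, ← map_commutator, ← commutator_def, hY]

theorem Hy.irr (h : Hy a z ρ) : ActsIrreducibly (matrixSet ρ.range) := irred_of_span (env_eq_top_iff.1 h.env)

theorem Hy.ns (h : Hy a z ρ) : ¬ ρ.range ≤ scalars (Fin 5) F := not_le_scalars_of_irred (by simp) h.irr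

theorem Hy.cen' (h : Hy a z ρ) (d : Y) : ρ d ∈ scalars (Fin 5) F ↔ d ∈ center Y :=
  ⟨h.cen d, fun hd => mem_scalars_of_comm_env h.env (by
    rintro _ ⟨y, rfl⟩
    rw [← map_mul, ← map_mul, mem_center_iff.1 hd])⟩

theorem Hy.desc (h : Hy a z ρ) (hY : commutator Y = ⊤) {F₀ : Subfield F} {r : ℕ} {P : GL (Fin 5) F}
    (hc : Nat.card F = Nat.card F₀ ^ r) (hle : ρ.range ≤ subfieldSubgroup F₀ P) :
    ∃ ρ₀ : Y →* GL (Fin 5) F₀, Hy a z ρ₀ := by
  let j : GL (Fin 5) F₀ →* GL (Fin 5) F :=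
    (MulAut.conj P).toMonoidHom.comp (GeneralLinearGroup.map (F₀.subtype : F₀ →+* F))
  have cj' : ∀ y, (j y).1 = cj P (y.1.map F₀.subtype) := fun _ => rfl
  have inj : Function.Injective j := fun x y e => by
    have h1 := congrArg Units.val e
    rw [cj', cj'] at h1
    exact Units.ext (Matrix.map_injective F₀.subtype.injective ((cj P).injective h1))
  have le : ρ.range ≤ j.range := le_of_perfect (range_perfect hY ρ) (hle.trans (by
    rw [subfieldSubgroup, Subgroup.map_sup, ← MonoidHom.range_comp]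
    refine sup_le_sup_left ?_ _
    rintro _ ⟨g, hg, rfl⟩
    exact (scalars_normal).conj_mem g hg P))
  let ρ₀ : Y →* GL (Fin 5) F₀ := (MonoidHom.ofInjective inj).symm.toMonoidHom.comp
    (ρ.codRestrict _ fun y => le ⟨y, rfl⟩)
  have e : ∀ y, j (ρ₀ y) = ρ y := fun y => congrArg Subtype.val ((MonoidHom.ofInjective inj).apply_symm_apply _)
  have sm : ∀ c : F₀, (c • (1 : Matrix (Fin 5) (Fin 5) F₀)).map F₀.subtype = (c : F) • 1 := fun c => by
    ext a b
    by_cases hab : a = b <;> simp [hab, Matrix.one_apply]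
  have s : ∀ g, j g ∈ scalars (Fin 5) F ↔ g ∈ scalars (Fin 5) F₀ := fun g => by
    constructor
    · intro hg
      obtain ⟨c, hc⟩ := (mem_scalars_iff _).1 hg
      have h1 : g.1.map F₀.subtype = (c : F) • 1 := (cj P).injective (by rw [← cj', hc, map_smul, map_one])
      have h2 : ((g.1 0 0 : F₀) : F) = c := by simpa using congrFun (congrFun h1 0) 0
      exact mem_scalars_of_eq_smul (c := g.1 0 0) (Matrix.map_injective F₀.subtype.injective (by
        change g.1.map F₀.subtype = Matrix.map _ F₀.subtype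
        rw [sm, h2, h1]))
    · intro hg
      obtain ⟨c, hc⟩ := (mem_scalars_iff _).1 hg
      exact mem_scalars_of_eq_smul (c := ((c : F₀) : F)) (by rw [cj', hc, sm, map_smul, map_one])
  have t : ∀ g, (j g).1.trace = (g.1.trace : F₀) := fun g => by
    rw [cj', cj_apply, trace_units_conj]
    exact (AddMonoidHom.map_trace F₀.subtype.toAddMonoidHom g.1).symm
  refine ⟨ρ₀, fun h2 => h.two (congrArg Subtype.val h2), fun q hq => h.nsq (q ^ r) (by rw [hc, hq]; ring),
    inj (by rw [e, h.z1, map_one]), fun d hd => h.cen d (e d ▸ (s _).2 hd), fun k => h.tr ?_, ?_, fun N hN hs => ?_⟩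
  · rw [← e, ← map_inv, t, t, k]
  · rw [env_eq_top_iff]
    by_contra n
    obtain ⟨f, f0, hf⟩ := Submodule.exists_le_ker_of_lt_top _ (lt_top_iff_ne_top.2 n)
    let φ : Matrix (Fin 5) (Fin 5) F →ₗ[F] F :=
      { toFun := fun m => ∑ i, ∑ k, cj P⁻¹ m i k * (f (single i k 1) : F₀)
        map_add' := fun m m' => by simp [add_mul, Finset.sum_add_distrib]
        map_smul' := fun c m => by simp [Finset.mul_sum, mul_assoc] }
    have k : ∀ m : Matrix (Fin 5) (Fin 5) F₀, φ (cj P (m.map F₀.subtype)) = f m := fun m => by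
      change ∑ i, ∑ k, cj P⁻¹ (cj P (m.map F₀.subtype)) i k * (f (single i k 1) : F₀) = _
      conv_rhs => rw [matrix_eq_sum_single m]
      rw [cj_inv_cj, map_sum]
      simp only [map_sum, AddSubmonoidClass.coe_finset_sum, map_apply]
      refine Finset.sum_congr rfl fun i _ => Finset.sum_congr rfl fun k _ => ?_
      rw [show single i k (m i k) = m i k • single i k (1 : F₀) by simp, map_smul]
      rfl
    have h0 : Submodule.span F (matrixSet ρ.range) ≤ LinearMap.ker φ := Submodule.span_le.2 (by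
      rintro _ ⟨_, ⟨y, rfl⟩, rfl⟩
      change φ (ρ y).1 = 0
      rw [← e, cj', k, show f (ρ₀ y).1 = 0 from hf (Submodule.subset_span ⟨_, ⟨y, rfl⟩, rfl⟩)]
      rfl)
    rw [env_eq_top_iff.1 h.env] at h0
    exact f0 (LinearMap.ext fun m => Subtype.ext ((k m).symm.trans (h0 Submodule.mem_top)))
  · rintro _ ⟨y, rfl⟩
    obtain ⟨n, hn, en⟩ := h.nrm (N.map j) (by
      rintro _ ⟨y, rfl⟩ _ ⟨n, hn, rfl⟩
      exact ⟨_, hN _ ⟨y, rfl⟩ n hn, by rw [map_mul, map_mul, map_inv, e]⟩)
      (fun k => hs fun n hn => (s n).1 (k ⟨n, hn, rfl⟩)) ⟨y, rfl⟩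
    rwa [← inj (en.trans (e y).symm)]

theorem Hy.qs (h : Hy a z ρ) (ha : a ∉ center Y) {S : Type*} [Group S] (ψ : ρ.range →* S)
    (h1 : ψ ⟨ρ a, a, rfl⟩ = 1) (g : ρ.range) : ψ g = 1 := by
  obtain ⟨g', hg, e⟩ := h.nrm (ψ.ker.map ρ.range.subtype) (by
    rintro k hk _ ⟨n, hn, rfl⟩
    exact ⟨_, (inferInstance : ψ.ker.Normal).conj_mem n hn ⟨k, hk⟩, rfl⟩)
    (fun k => ha (h.cen a (k ⟨_, h1, rfl⟩))) g.2
  rwa [← Subtype.ext e]

theorem Hy.no_dec (h : Hy a z ρ) (ha : a ∉ center Y) (a11 : a ^ 11 = 1) {t k : ℕ}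
    {D : Fin t → Submodule F (Fin 5 → F)} (hD : IsMDecomposition k D) : ¬ ρ.range ≤ decompositionStabilizer D := by
  intro hle
  have e := card_eq_of_decomp hD
  rw [Fintype.card_fin] at e
  have ht := hD.two_le
  have h3 := hD.pos
  have h5 : t ≤ 5 := by nlinarith
  have hne : ∀ l, D l ≠ ⊥ := fun l h => by
    have := hD.finrank_eq l
    rw [h, finrank_bot] at this; omega
  have hinj : Function.Injective D := hD.indep.injective hne
  let φ : decompositionStabilizer D →* Equiv.Perm (Fin t) := MonoidHom.mk' (fun g => g.2.choose)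
    fun a b => Equiv.ext fun i => hinj (by
      rw [← (a * b).2.choose_spec, Equiv.Perm.mul_apply, ← a.2.choose_spec, ← b.2.choose_spec, Subgroup.coe_mul,
        Units.val_mul, toLin'_mul, Submodule.map_comp])
  have h1 := h.qs ha (φ.comp (inclusion hle)) (by
    refine (pow_eq_one_iff_of_coprime (m := 11) (n := t.factorial) ?_).1 ⟨?_, ?_⟩
    · interval_cases t <;> decide
    · rw [← map_pow, show (⟨ρ a, a, rfl⟩ : ρ.range) ^ 11 = 1 from Subtype.ext (by simp [← map_pow, a11]), map_one]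
    · have := pow_card_eq_one' (x := φ.comp (inclusion hle) ⟨ρ a, a, rfl⟩)
      rwa [Nat.card_perm, Nat.card_eq_fintype_card, Fintype.card_fin] at this)
  rcases h.irr (D ⟨0, by omega⟩) (by
    rintro _ ⟨g, hg, rfl⟩
    have h3 := (hle hg).choose_spec ⟨0, by omega⟩
    rw [show (hle hg).choose = 1 from h1 ⟨g, hg⟩] at h3
    exact h3.le) with h | h
  · exact hne _ h
  · have : Disjoint (D ⟨0, by omega⟩) (D ⟨1, by omega⟩) := hD.indep.pairwiseDisjoint (by simp)
    exact hne _ (top_disjoint.1 (h ▸ this))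

theorem Hy.no_ext [Finite F] (h : Hy a z ρ) {r : ℕ} (hr : r.Prime) {K : Subalgebra F (Matrix (Fin 5) (Fin 5) F)}
    (hK : IsFieldSubalgebra r K) : ¬ ρ.range ≤ subalgebraNormalizer K := by
  intro hle
  let S : Subgroup (GL (Fin 5) F) :=
    { carrier := {g | g.1 ∈ K}
      mul_mem' := fun a b => K.mul_mem a b
      one_mem' := K.one_mem
      inv_mem' := fun {g} hg => by
        obtain ⟨y, hy, e⟩ := hK.inv _ hg g.ne_zero
        change (g⁻¹).1 ∈ K
        rwa [Units.inv_eq_of_mul_eq_one_right e] }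
  have h1 := h.nrm S (fun g hg t ht => by
    change (g * t * g⁻¹).1 ∈ K; rw [← cj_coe]; exact stab_of_le_normalizer hle g hg _ ht) fun hs => by
    have : K = ⊥ := eq_bot_iff.2 fun x hx => by
      by_cases x0 : x = 0
      · rw [x0]; exact zero_mem _
      obtain ⟨y, -, e⟩ := hK.inv x hx x0
      obtain ⟨c, hc⟩ := (mem_scalars_iff _).1 (hs (show (⟨x, y, e, mul_eq_one_comm.1 e⟩ : GL (Fin 5) F) ∈ S from hx))
      exact mem_bot_iff.2 ⟨c, hc⟩
    have e := hK.finrank_eq
    rw [this, Subalgebra.finrank_bot] at e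
    exact hr.one_lt.ne e
  exact h.ns fun g hg => mem_scalars_of_comm_env h.env fun y hy => Units.ext (hK.comm _ (h1 hg) _ (h1 hy))

theorem Hy.no_orth (h : Hy a z ρ) (hY : commutator Y = ⊤) {Q : (Fin 5 → F) → F}
    (hQ : IsNondegenerateQuadraticForm Q) : ¬ ρ.range ≤ quadSimilarityGroup Q := by
  intro hle
  have hfix : FixesQuadForm (matrixSet ρ.range) Q := by
    let S : Subgroup (GL (Fin 5) F) :=
      { carrier := {g | ∀ v, Q (g.1 *ᵥ v) = Q v}
        mul_mem' := fun {a b} ha hb v => by rw [Units.val_mul, ← mulVec_mulVec, ha, hb]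
        one_mem' := fun v => by simp
        inv_mem' := fun {g} hg v => by rw [← hg, mulVec_mulVec, Units.mul_inv, one_mulVec] }
    have : ρ.range ≤ S := by
      rw [← range_perfect hY ρ]
      refine commutator_le.2 fun g hg k hk v => ?_
      obtain ⟨c, hc⟩ := hle hg
      obtain ⟨d, hd⟩ := hle hk
      have e1 := hc ((g⁻¹).1 *ᵥ (k⁻¹).1 *ᵥ v)
      have e2 := hd ((k⁻¹).1 *ᵥ v)
      rw [mulVec_mulVec, Units.mul_inv, one_mulVec] at e1 e2
      rw [commutatorElement_def, Units.val_mul, Units.val_mul, Units.val_mul, ← mulVec_mulVec, ← mulVec_mulVec,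
        ← mulVec_mulVec, hc, hd, e2, e1, mul_left_comm]
    rintro _ ⟨g, hg, rfl⟩
    exact this hg
  have hs := isSesq0_of_bilin hQ.polar_bilinear
  have hu := hs.isUnit_det hQ.nondegenerate
  have e := hs.fixes_iff.1 (fixesForm_iff.1 (fixesForm_polar hfix) (ρ a) ⟨a, rfl⟩)
  refine h.tr ?_
  generalize ρ a = x at e
  set M := gramMatrix (QuadraticMap.polar Q)
  have e1 : x.1ᵀ = M * (x⁻¹).1 * M⁻¹ := by
    have e2 : x.1ᵀ * M * x.1 = M := by simpa using e
    conv_rhs => enter [1, 1]; rw [← e2]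
    rw [mul_assoc _ x.1, Units.mul_inv, mul_one, mul_assoc, mul_nonsing_inv _ hu, mul_one]
  rw [← trace_transpose, e1, trace_mul_cycle, nonsing_inv_mul _ hu, one_mul]

end CfsgLib.Wl11
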