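import Mathlib
import Cfsg.Agent.Lib.Wl11.WeilA
import Cfsg.Agent.Lib.Wl7.BlkA

/-! Five blocks of size two.  See `plans/WL11.md`. -/

set_option autoImplicit false
set_option linter.unusedSectionVars false

namespace CfsgLib.Wl11

open Matrix Subgroup Cfsg Cfsg.Geo CfsgLib.Asch CfsgLib.Wl5
open CfsgLib.Wl7 (blk_pow)
open scoped commutatorElement MatrixGroups

variable {F : Type*} [Field F] [Fintype F] {ζ : Fˣ} {x y u s t z : GL (Fin 11) F} {H : Subgroup (GL (Fin 11) F)}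

theorem trv_step {σ : Fin 11 → Fin 11} (hσ : Function.Injective σ) {m : GL (Fin 11) F} (hm : m ∈ H) {e : F}
    (em : m.1 = of fun a b => if a = σ b then e else 0) (n : ℕ) {i j : Fin 11}
    (h : ∀ c : F, ∃ g ∈ H, g.1 = 1 + single i j c) : ∀ c : F, ∃ g ∈ H, g.1 = 1 + single (σ^[n] i) (σ^[n] j) c := by
  induction n with
  | zero => exact h
  | succ n ih =>
    intro c
    obtain ⟨g, hg, eg⟩ := ih c
    refine ⟨m * g * m⁻¹, mul_mem (mul_mem hm hg) (inv_mem hm), ?_⟩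
    rw [Units.val_mul, Units.mul_inv_eq_iff_eq_mul, Units.val_mul, eg, mul_add, add_mul, mul_one, one_mul,
      Function.iterate_succ_apply', Function.iterate_succ_apply', em]
    congr 1
    ext a b
    simp [mul_apply, single_apply, ite_and, hσ.eq_iff, eq_comm, mul_comm]
    split_ifs <;> rfl

theorem trv (h : Std ζ x y u s t z) (hy : y ∈ H) (ht : t ∈ H) (hz : z ∈ H)
    (hr : ∀ c : F, ∃ g ∈ H, g.1 = 1 + single 1 10 c) : specialLinear (Fin 11) F ≤ H := by
  have k : ∀ i j : Fin 11, i ≠ j → ∃ a ∈ List.range 11, ∃ b ∈ List.range 5, ∃ e ∈ List.range 2,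
      i = (· + 1)^[a] ((3 * ·)^[b] ((- ·)^[e] 1)) ∧ j = (· + 1)^[a] ((3 * ·)^[b] ((- ·)^[e] 10)) := by decide +kernel
  rw [show specialLinear (Fin 11) F = _ from Classical.sl_range_toGL.symm]
  rintro _ ⟨A, rfl⟩
  refine Classical.sl_transvection_induction (fun A => SpecialLinearGroup.toGL A ∈ H) (by simp)
    (fun i j hij c => ?_) (fun A B hA hB => by rw [map_mul]; exact mul_mem hA hB) A
  obtain ⟨a, -, b, -, e, -, rfl, rfl⟩ := k i j hij
  obtain ⟨g, hg, eg⟩ := trv_step (by decide) hy h.ey a (trv_step (by decide) ht h.et b (trv_step (σ := (- ·))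
    (by decide) hz (e := -1) (by rw [h.ez]; ext a b; simp [Z11, add_eq_zero_iff_eq_neg]; split_ifs <;> simp) e hr)) c
  convert hg using 1
  exact Units.ext eg.symm

theorem blk_card {η : F} (hη : IsPrimitiveRoot η 11) : 11 ∣ Fintype.card F - 1 :=
  hη.dvd_of_pow_eq_one _ (FiniteField.pow_card_sub_one_eq_one η (hη.ne_zero (by decide)))

theorem blk_four {η : F} (hη : IsPrimitiveRoot η 11) : 4 ≤ Fintype.card F := by
  have := blk_card hη
  have := Fintype.one_lt_card (α := F)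
  omega

/-- `diag(η, η⁻¹)` and the homology with eigenvectors `(1, 1)`, `(1, -1)` generate `SL₂(F)` -/
theorem blk_sl2 (hf : Fld F) (h2 : (2 : F) ≠ 0) {η l : F} (hη : IsPrimitiveRoot η 11) (hl : IsPrimitiveRoot l 11)
    {J : Subgroup (GL (Fin 2) F)} {p q : GL (Fin 2) F} (hp : p ∈ J) (hq : q ∈ J) (ep : p.1 = !![η, 0; 0, η⁻¹])
    (eq : (2 : F) • q.1 = !![1 + l, 1 - l; 1 - l, 1 + l]) : specialLinear (Fin 2) F ≤ J := by
  obtain ⟨r, hr⟩ := CharP.exists F
  have := Fact.mk (CharP.char_is_prime F r)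
  have : Fact (Nat.Prime 11) := ⟨by norm_num⟩
  have n0 := hη.ne_zero (by decide)
  have n2 : η * η ≠ 1 := pow_two η ▸ hη.pow_ne_one_of_pos_of_lt (by decide) (by decide)
  have l1 : l ≠ 1 := hl.ne_one (by decide)
  have l2 : 1 + l ≠ 0 := fun e => hl.pow_ne_one_of_pos_of_lt (l := 2) (by decide) (by decide)
    (by linear_combination (l - 1) * e)
  have q0 : 2 * q.1 0 0 = 1 + l := congrFun (congrFun eq 0) 0
  have q1 : 2 * q.1 0 1 = 1 - l := congrFun (congrFun eq 0) 1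
  have q2 : 2 * q.1 1 0 = 1 - l := congrFun (congrFun eq 1) 0
  have mp := mem_map_of_mem ProjGenLinGroup.mk hp
  have mq := mem_map_of_mem ProjGenLinGroup.mk hq
  have p7 : ProjGenLinGroup.mk p ^ 11 = 1 := by
    rw [← map_pow, show p ^ 11 = 1 from Units.ext (by
      rw [Units.val_pow_eq_pow_val, ep, show !![η, 0; 0, η⁻¹] = diagonal ![η, η⁻¹] by
        ext i j; fin_cases i <;> fin_cases j <;> simp, diagonal_pow]
      ext i j; fin_cases i <;> fin_cases j <;> simp [hη.pow_eq_one]), map_one]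
  have q7 : ProjGenLinGroup.mk q ^ 11 = 1 := by
    rw [← map_pow, show q ^ 11 = 1 from Units.ext (smul_right_injective _ h2 ((blk_pow h2 eq 11).trans (by
      ext i j; fin_cases i <;> fin_cases j <;> simp [hl.pow_eq_one] <;> ring))), map_one]
  have nc : ProjGenLinGroup.mk p * ProjGenLinGroup.mk q * (ProjGenLinGroup.mk p)⁻¹ * (ProjGenLinGroup.mk q)⁻¹ ≠ 1 :=
    fun e => by
    rw [← map_inv, ← map_inv, ← map_mul, ← map_mul, ← map_mul, ← MonoidHom.mem_ker, d2_ker, mem_scalars_iff] at e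
    obtain ⟨c, e⟩ := e
    rw [Units.val_mul, Units.mul_inv_eq_iff_eq_mul, Units.val_mul, Units.mul_inv_eq_iff_eq_mul, Units.val_mul,
      ep] at e
    have e0 := congrFun (congrFun e 0) 0
    have e1 := congrFun (congrFun e 0) 1
    simp [mul_apply] at e0 e1
    grind
  have o7 : 11 ∣ Nat.card (J.map ProjGenLinGroup.mk) :=
    orderOf_eq_prime p7 (fun e => nc (by simp [e])) ▸ orderOf_dvd_natCard _ mp
  have pr {x y : Dickson.Pbar F} (hxy : x ≠ y) (h : J.map ProjGenLinGroup.mk ≤ Dickson.pairStab ⊤ x y) : False :=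
    nc (Dickson.commutator_eq_one_of_mem_stab2 hxy (Dickson.fix_of_mem_pairStab_of_odd hxy (h mp) (by decide) p7)
      (Dickson.fix_of_mem_pairStab_of_odd hxy (h mq) (by decide) q7))
  rcases Dickson.dickson_fin r (J.map ProjGenLinGroup.mk) with ⟨x, h⟩ | ⟨x, y, hxy, h⟩ | ⟨x, y, hxy, h⟩ |
    ⟨-, -, ⟨e⟩⟩ | ⟨-, -, ⟨e⟩⟩ | ⟨-, -, ⟨e⟩⟩ | ⟨K, k, -, h⟩
  · have e1 := Dickson.smul_emb_eq_iff.1 (h mp).2
    have e2 := Dickson.smul_emb_eq_iff.1 (h mq).2
    rw [Dickson.mk_eq_pm] at e1 e2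
    rcases x.eq_inf_or with rfl | ⟨a, rfl⟩
    · rw [Dickson.pm_smul_inf_eq_inf] at e2
      grind
    · rw [Dickson.pm_smul_pt_eq_pt] at e1 e2
      simp [ep] at e1
      grind
  · exact (pr (Dickson.emb_injective.ne hxy) h).elim
  · exact (pr hxy.2.1 h).elim
  · rw [Nat.card_congr e.toEquiv, nat_card_alternatingGroup] at o7
    simp [Nat.factorial] at o7
  · rw [Nat.card_congr e.toEquiv, Nat.card_perm] at o7
    simp [Nat.factorial] at o7
  · rw [Nat.card_congr e.toEquiv, nat_card_alternatingGroup] at o7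
    simp [Nat.factorial] at o7
  have h7 : 11 ∣ Nat.card K * (Nat.card K ^ 2 - 1) := h.elim (fun h => Dickson.card_pglSub K k ▸ h ▸ o7)
    fun h => Dickson.card_pslSub_odd h.1 k ▸ (h.2 ▸ o7).mul_left 2
  obtain rfl := hf.gen K (((Nat.Prime.dvd_mul this.out).1 h7).resolve_left fun h8 => by
    have h9 := h8.trans (AddSubgroup.card_addSubgroup_dvd_card K.toAddSubgroup)
    have := blk_card hη
    have := Fintype.card_pos (α := F)
    rw [Nat.card_eq_fintype_card] at h9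
    omega)
  refine d2_le (blk_four hη) ?_
  rcases h with h | ⟨-, h⟩ <;> rw [h]
  · simp [Dickson.pglSub_top]
  · simp [Dickson.pslSub_top]

theorem blk_half (hf : Fld F) (h2 : (2 : F) ≠ 0) {T : Type*} [Group T] {J : Subgroup T} {p q : T} (hp : p ∈ J) (hq : q ∈ J)
    (π₀ π : T →* GL (Fin 2) F) {ξ m η l : F} (hξ : IsPrimitiveRoot ξ 11) (hm : IsPrimitiveRoot m 11)
    (hη : IsPrimitiveRoot η 11) (hl : IsPrimitiveRoot l 11) (ep : (π₀ p).1 = !![ξ, 0; 0, ξ⁻¹])
    (eq : (2 : F) • (π₀ q).1 = !![1 + m, 1 - m; 1 - m, 1 + m]) (ep' : (π p).1 = !![η, 0; 0, η⁻¹])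
    (eq' : (2 : F) • (π q).1 = !![1 + l, 1 - l; 1 - l, 1 + l]) (a : ℕ) (ha : l ^ a * η ^ 2 = 1)
    (h1 : m ^ a ≠ ξ ^ 2) (h3 : m ^ a * ξ ^ 2 ≠ 1) :
    specialLinear (Fin 2) F ≤ (J ⊓ (scalars (Fin 2) F).comap π).map π₀ := by
  have n0 := hη.ne_zero (by decide)
  have x0 := hξ.ne_zero (by decide)
  refine (sl2_normal (blk_four hη) fun k hk n hn => ?_).resolve_left fun hs => ?_
  · obtain ⟨g, hg, rfl⟩ := blk_sl2 hf h2 hξ hm (mem_map_of_mem π₀ hp)
      (mem_map_of_mem π₀ hq) ep eq hk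
    obtain ⟨d, ⟨d1, d2⟩, rfl⟩ := hn
    refine ⟨g * d * g⁻¹, ⟨J.mul_mem (mul_mem hg d1) (inv_mem hg), ?_⟩, by simp⟩
    change π d ∈ scalars (Fin 2) F at d2
    change π (g * d * g⁻¹) ∈ scalars (Fin 2) F
    rwa [map_mul, map_mul, map_inv, ← mul_comm_of_mem_scalars d2, mul_inv_cancel_right]
  obtain ⟨g, hg, eg⟩ := blk_sl2 hf h2 hη hl (mem_map_of_mem π hp) (mem_map_of_mem π hq) ep' eq'
    (show SpecialLinearGroup.toGL ⟨!![1, -2⁻¹; 1, 2⁻¹], by rw [det_fin_two_of]; field_simp; ring⟩ ∈ _ from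
      d2_range.le ⟨_, rfl⟩)
  obtain ⟨c, hc⟩ := (mem_scalars_iff _).1 (hs ⟨g * p * g⁻¹ * (q ^ a)⁻¹,
    ⟨J.mul_mem (mul_mem (mul_mem hg hp) (inv_mem hg)) (inv_mem (pow_mem hq a)), mem_scalars_of_eq_smul (c := η) (by
      rw [map_mul, map_mul, map_mul, map_inv, map_inv, map_pow, Units.val_mul, Units.mul_inv_eq_iff_eq_mul,
        smul_mul_assoc, one_mul, Units.val_mul, Units.mul_inv_eq_iff_eq_mul, Units.val_mul, ep',
        show (π g).1 = !![1, -2⁻¹; 1, 2⁻¹] from congrArg Units.val eg]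
      refine smul_right_injective _ h2 ?_
      change (2 : F) • _ = (2 : F) • _
      rw [← smul_mul_assoc _ (η • _), smul_comm _ η, blk_pow h2 eq']
      ext i j; fin_cases i <;> fin_cases j <;> simp [mul_apply] <;> field_simp <;> grind)⟩, rfl⟩)
  rw [map_mul, map_mul, map_mul, map_inv, map_inv, map_pow] at hc
  rw [Units.val_mul, Units.mul_inv_eq_iff_eq_mul, smul_mul_assoc, one_mul] at hc
  have t1 := congrArg (fun M => ((2 : F) • M).trace) hc
  have t2 := congrArg (fun M => ((2 : F) • M).det) hc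
  simp only [smul_comm (2 : F) (c : F), blk_pow h2 eq] at t1 t2
  rw [trace_smul, Units.val_mul, Units.val_mul, trace_units_conj, ep] at t1
  rw [det_smul, Units.val_mul, Units.val_mul, det_units_conj, ep] at t2
  simp [det_fin_two] at t1 t2
  have i0 := mul_inv_cancel₀ x0
  have s1 : ξ ^ 2 + 1 = ξ * c * (1 + m ^ a) := mul_left_cancel₀ h2 (by linear_combination ξ * t1 - 2 * i0)
  have s2 : (c : F) ^ 2 * m ^ a = 1 := mul_left_cancel₀ (mul_ne_zero h2 h2) (by linear_combination 4 * i0 - t2)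
  exact mul_ne_zero (sub_ne_zero.2 h1) (sub_ne_zero.2 h3) (by
    linear_combination -m ^ a * (ξ ^ 2 + 1 + ξ * c * (1 + m ^ a)) * s1 - ξ ^ 2 * (1 + m ^ a) ^ 2 * s2)

end CfsgLib.Wl11
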