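import Mathlib
import Cfsg.Agent.Lib.Wl11.BlkA

/-! Five blocks of size two.  See `plans/WL11.md`. -/

set_option autoImplicit false
set_option linter.unusedSectionVars false

namespace CfsgLib.Wl11

open Matrix Subgroup Cfsg Cfsg.Geo CfsgLib.Asch CfsgLib.Wl5
open scoped commutatorElement MatrixGroups

variable {F : Type*} [Field F] [Fintype F] {ζ : Fˣ} {x y u s t z : GL (Fin 11) F} {H : Subgroup (GL (Fin 11) F)}

/-- the two indices of a block -/
def bI (a : Fin 2) (k : Fin 5) : Fin 11 := ![![1, 2, 3, 4, 5], ![10, 9, 8, 7, 6]] a k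

def bE : Unit ⊕ Fin 2 × Fin 5 ≃ Fin 11 where
  toFun := Sum.elim (fun _ => 0) fun p => bI p.1 p.2
  invFun := ![.inl (), .inr (0, 0), .inr (0, 1), .inr (0, 2), .inr (0, 3), .inr (0, 4), .inr (1, 4), .inr (1, 3),
    .inr (1, 2), .inr (1, 1), .inr (1, 0)]
  left_inv := by decide
  right_inv := by decide

def bm (A : Fin 5 → Matrix (Fin 2) (Fin 2) F) : M11x F :=
  (fromBlocks 1 0 0 (blockDiagonal A)).submatrix bE.symm bE.symm

/-- five blocks -/
noncomputable def bet : (Fin 5 → GL (Fin 2) F) →* GL (Fin 11) F := MonoidHom.toHomUnits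
  { toFun g := bm fun k => (g k).1
    map_one' := by
      rw [bm, show (fun k => ((1 : Fin 5 → GL (Fin 2) F) k).1) = 1 from rfl, blockDiagonal_one, fromBlocks_one,
        submatrix_one_equiv]
    map_mul' g h := by
      rw [bm, bm, bm, submatrix_mul_equiv, fromBlocks_multiply, ← blockDiagonal_mul]
      simp }

theorem bm_ext {M : M11x F} {c : F} {A : Fin 5 → Matrix (Fin 2) (Fin 2) F} (h0 : M 0 0 = c)
    (h1 : ∀ a k, M 0 (bI a k) = 0) (h2 : ∀ a k, M (bI a k) 0 = 0)
    (h3 : ∀ a k b l, M (bI a k) (bI b l) = if k = l then c * A k a b else 0) : M = c • bm A := by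
  ext i j
  obtain ⟨i, rfl⟩ := bE.surjective i
  obtain ⟨j, rfl⟩ := bE.surjective j
  rw [Matrix.smul_apply, bm, submatrix_apply, Equiv.symm_apply_apply, Equiv.symm_apply_apply, smul_eq_mul]
  rcases i with _ | ⟨a, k⟩ <;> rcases j with _ | ⟨b, l⟩
  · exact h0.trans (by simp)
  · exact (h1 b l).trans (by simp)
  · exact (h2 a k).trans (by simp)
  · exact (h3 a k b l).trans (by simp [blockDiagonal_apply])

theorem weE_mul {z : F} (h : z ^ 11 = 1) (a b : Fin 11) : weE z (a * b) = weE z a ^ (b : ℕ) := by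
  rw [weE, weE, Fin.val_mul, ← pow_eq_pow_mod _ h, pow_mul]

theorem blk (h : Std ζ x y u s t z) (hf : Fld F) (hx : x ∈ H) (hy : y ∈ H) (ht : t ∈ H)
    (hz : z ∈ H) {w : GL (Fin 11) F} (hw : w ∈ H) (ew : (2 : F) • w.1 = 1 + Z11 F + U11 (ζ : F) * (1 - Z11 F)) :
    specialLinear (Fin 11) F ≤ H := by
  have h2 := hf.two
  have h7 := h.prim.pow_eq_one
  have pr {a : Fin 11} (ha : a ≠ 0) : IsPrimitiveRoot (weE (ζ : F) a) 11 :=
    h.prim.pow_of_coprime _ (by revert a; decide)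
  have ne {a b : Fin 11} (e : weE (ζ : F) a = weE (ζ : F) b) : a = b := Fin.ext (h.prim.pow_inj a.2 b.2 e)
  have P (η : F) (hη : IsPrimitiveRoot η 11) : ∃ p q : GL (Fin 2) F, p.1 = !![η, 0; 0, η⁻¹] ∧
      (2 : F) • q.1 = !![1 + η, 1 - η; 1 - η, 1 + η] := by
    have := hη.ne_zero (by decide)
    refine ⟨GeneralLinearGroup.mkOfDetNeZero _ (by simp [det_fin_two, this]), GeneralLinearGroup.mkOfDetNeZero
      ((2 : F)⁻¹ • !![1 + η, 1 - η; 1 - η, 1 + η]) (by
        rwa [show det ((2 : F)⁻¹ • !![1 + η, 1 - η; 1 - η, 1 + η]) = η by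
          rw [det_smul, det_fin_two_of, Fintype.card_fin]; field_simp; ring]), rfl, ?_⟩
    exact smul_inv_smul₀ h2 _
  have p0 (k : Fin 5) : IsPrimitiveRoot (weE (ζ : F) (bI 0 k)) 11 := pr (by revert k; decide)
  have q0 (k : Fin 5) : IsPrimitiveRoot (weE (ζ : F) (6 * bI 0 k * bI 0 k)) 11 := pr (by revert k; decide)
  choose p _ ep _ using fun k => P _ (p0 k)
  choose _ q _ eq using fun k => P _ (q0 k)
  have i0 : ∀ a k, (0 : Fin 11) ≠ bI a k ∧ bI a k ≠ 0 := by decide
  have i1 : ∀ a k b l, (bI a k = bI b l ↔ k = l ∧ a = b) ∧ (bI a k + bI b l = 0 ↔ k = l ∧ a ≠ b) := by decide +kernel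
  have hp : p ∈ H.comap bet := by
    refine mem_comap.2 ((Units.ext ?_ : x = bet p) ▸ hx)
    change _ = bm fun k => (p k).1
    rw [h.ex, ← one_smul F (bm _)]
    refine bm_ext (by simp [X11]) (fun a k => diagonal_apply_ne _ (i0 a k).1) (fun a k => diagonal_apply_ne _ (i0 a k).2)
      fun a k b l => ?_
    have : weE (ζ : F) (bI 1 k) = (weE (ζ : F) (bI 0 k))⁻¹ := eq_inv_of_mul_eq_one_left (by
      rw [← weE_add h7, ((i1 _ _ _ _).2).2 ⟨rfl, by decide⟩, weE_zero])
    rw [X11, diagonal_apply, ep, ← this]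
    by_cases e : k = l
    · fin_cases a <;> fin_cases b <;> simp [(i1 _ _ _ _).1, e, weE]
    · simp [(i1 _ _ _ _).1, e]
  have hq : q ∈ H.comap bet := by
    refine mem_comap.2 ((Units.ext (smul_right_injective _ h2 ?_) : w = bet q) ▸ hw)
    change (2 : F) • _ = (2 : F) • bm fun k => (q k).1
    have g (k i j) := congrFun (congrFun (eq k) i) j
    simp only [Matrix.smul_apply, smul_eq_mul] at g
    have e : ∀ i j, (1 + Z11 F + U11 (ζ : F) * (1 - Z11 F)) i j = (if i = j then 1 else 0) + (if i + j = 0 then 1 else 0) +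
        weE (ζ : F) (6 * i * i) * ((if i = j then 1 else 0) - if i + j = 0 then 1 else 0) := fun i j => by
      simp only [U11, Z11, Matrix.add_apply, diagonal_mul, Matrix.sub_apply, of_apply, one_apply, weE]
    rw [ew]
    refine bm_ext (by simp [e, one_add_one_eq_two]) (fun a k => by simp [e, (i0 a k).1, (i0 a k).2])
      (fun a k => by simp [e, (i0 a k).2]) fun a k b l => ?_
    rw [e, g, (by decide : ∀ a k, 6 * bI a k * bI a k = 6 * bI 0 k * bI 0 k)]
    by_cases e : k = l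
    · fin_cases a <;> fin_cases b <;> simp [(i1 _ _ _ _).1, (i1 _ _ _ _).2, e, sub_eq_add_neg]
    · simp [(i1 _ _ _ _).1, (i1 _ _ _ _).2, e]
  let π : Fin 5 → ((Fin 5 → GL (Fin 2) F) →* GL (Fin 2) F) := Pi.evalMonoidHom fun _ => GL (Fin 2) F
  let N : Fin 5 → Subgroup (Fin 5 → GL (Fin 2) F) := fun j => H.comap bet ⊓ (scalars (Fin 2) F).comap (π j)
  have k (j : Fin 5) (hj : j ≠ 0) : specialLinear (Fin 2) F ≤ (N j).map (π 0) := by
    obtain ⟨a, a1, a2, a3⟩ : ∃ a : Fin 11, 6 * bI 0 j * bI 0 j * a + bI 0 j * 2 = 0 ∧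
      6 * bI 0 0 * bI 0 0 * a ≠ bI 0 0 * 2 ∧ 6 * bI 0 0 * bI 0 0 * a + bI 0 0 * 2 ≠ 0 := by revert j; decide
    have m2 (b : Fin 11) : weE (ζ : F) b ^ 2 = weE (ζ : F) (b * 2) := (weE_mul h7 b 2).symm
    exact blk_half hf h2 hp hq (π 0) (π j) (p0 0) (q0 0) (p0 j) (q0 j) (ep 0) (eq 0) (ep j) (eq j) a
      (by rw [← weE_mul h7, m2, ← weE_add h7, a1, weE_zero]) (by rw [← weE_mul h7, m2]; exact fun e => a2 (ne e))
      (by rw [← weE_mul h7, m2, ← weE_add h7]; exact fun e => a3 (ne (e.trans weE_zero.symm)))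
  have c1 {A B : Subgroup (Fin 5 → GL (Fin 2) F)} (hA : specialLinear (Fin 2) F ≤ A.map (π 0))
      (hB : specialLinear (Fin 2) F ≤ B.map (π 0)) : specialLinear (Fin 2) F ≤ ⁅A, B⁆.map (π 0) := by
    rw [map_commutator, ← d2_perfect (blk_four h.prim)]
    exact commutator_mono hA hB
  have c2 {A B : Subgroup (Fin 5 → GL (Fin 2) F)} (hA : A ≤ H.comap bet) (hB : B ≤ H.comap bet) :
      ⁅A, B⁆ ≤ H.comap bet := (commutator_mono hA hB).trans (commutator_le_self _)
  have c3 (j : Fin 5) (B : Subgroup (Fin 5 → GL (Fin 2) F)) : ⁅N j, B⁆ ≤ (π j).ker := commutator_le.2 fun a ha b _ => by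
    rw [MonoidHom.mem_ker, map_commutatorElement, commutatorElement_eq_one_iff_mul_comm]
    exact mul_comm_of_mem_scalars ha.2 _
  refine trv h hy ht hz fun c => ?_
  obtain ⟨g, hg, eg⟩ := c1 (c1 (k 1 (by decide)) (k 2 (by decide))) (c1 (k 3 (by decide)) (k 4 (by decide)))
    (d2_range.le ⟨⟨!![1, c; 0, 1], by simp [det_fin_two]⟩, rfl⟩)
  refine ⟨_, c2 (c2 inf_le_left inf_le_left) (c2 inf_le_left inf_le_left) hg, ?_⟩
  have g0 : (g 0).1 = !![1, c; 0, 1] := congrArg Units.val eg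
  have g1 : g 1 = 1 := (commutator_mono (c3 1 _) le_top).trans (commutator_le_left _ _) hg
  have g2 : g 2 = 1 := (commutator_mono ((commutator_comm _ _).le.trans (c3 2 _)) le_top).trans (commutator_le_left _ _) hg
  have g3 : g 3 = 1 := (commutator_mono le_top (c3 3 _)).trans (commutator_le_right _ _) hg
  have g4 : g 4 = 1 := (commutator_mono le_top ((commutator_comm _ _).le.trans (c3 4 _))).trans (commutator_le_right _ _) hg
  change bm (fun k => (g k).1) = _
  rw [← one_smul F (bm _), eq_comm]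
  have i2 : ∀ a k b l, (1 = bI a k ∧ 10 = bI b l ↔ k = 0 ∧ l = 0 ∧ a = 0 ∧ b = 1) := by decide +kernel
  refine bm_ext (by simp) (fun a k => by simp [one_apply, single_apply, (i0 a k).1])
    (fun a k => by simp [one_apply, single_apply, (i0 a k).2]) fun a k b l => ?_
  simp only [Matrix.add_apply, one_apply, single_apply, (i1 _ _ _ _).1, i2]
  by_cases e : k = l
  · subst e
    fin_cases k
    · fin_cases a <;> fin_cases b <;> simp [g0]
    all_goals simp [g1, g2, g3, g4, one_apply]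
  · rw [if_neg e, if_neg fun h => e h.1, if_neg fun h => e (h.1.trans h.2.1.symm), add_zero]

end CfsgLib.Wl11
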