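import Mathlib
import Cfsg.Agent.Lib.Wl11.DimA
import Cfsg.Agent.Lib.SU5.Defs
import Cfsg.Agent.Lib.PSL2Rec.Basic
import Cfsg.Agent.S2086
import Cfsg.Agent.S2034

/-! Overgroups of `L₂(11)` in `GL₅(q)`.  See `plans/WL11.md`. -/

set_option autoImplicit false

namespace CfsgLib.Wl11

open Matrix Subgroup Cfsg Cfsg.Geo CfsgLib.Asch
open scoped commutatorElement MatrixGroups

universe u v

variable {Y : Type v} [Group Y] [Finite Y] {a b c z : Y}

omit [Finite Y] in
theorem Rel.ncen (hr : Rel a b c z) (ha : a ≠ 1) : a ∉ center Y ∧ c ∉ center Y ∧ a * b ∉ center Y := by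
  have k : c * a ≠ a * c := fun e => ha (by
    have := hr.ca
    rw [e, mul_inv_cancel_right, pow_succ, eq_comm, mul_eq_right] at this
    exact (pow_eq_one_iff_of_coprime (by norm_num : Nat.Coprime 11 4)).1 ⟨hr.a11, this⟩)
  refine ⟨fun h => k (mem_center_iff.1 h c), fun h => k (mem_center_iff.1 h a).symm, fun h => ha ?_⟩
  have c1 : Commute a b := mul_left_cancel (a := a) (by rw [mem_center_iff.1 h a, mul_assoc])
  have e : (a * b) ^ 12 = 1 := by rw [show 12 = 3 * 4 from rfl, pow_mul, hr.ab, one_pow]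
  have b4 : b ^ 4 = 1 := by rw [show 4 = 2 * 2 from rfl, pow_mul, pow_two b, hr.bb, pow_two, hr.zz]
  rwa [c1.mul_pow, show 12 = 4 * 3 from rfl, pow_mul b, b4, one_pow, mul_one, pow_succ _ 11, hr.a11, one_mul] at e

theorem res_case {F : Type u} [Field F] [Fintype F] {ρ : Y →* GL (Fin 5) F} (hY : commutator Y = ⊤)
    (hr : Rel a b c z) (hz : z ≠ 1) (h : Hy a z ρ) {P : Subgroup (GL (Fin 5) F)} (hP : ρ.range ≤ P)
    (hs : IsSimpleGroup (Bar5 P))
    (hc : Nat.card (Bar5 P) = 660 ∨ Spor.IsoM11 (Bar5 P) ∨ Nat.card (Bar5 P) = 25920) :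
    ¬ 8 ∣ (center Y).index ∧ ¬ 121 ∣ (center Y).index := by
  obtain ⟨n1, n2, n3⟩ := hr.ncen fun e => h.tr (by simp [e])
  let τ : Y →* Bar5 P := (QuotientGroup.mk' _).comp (ρ.codRestrict P fun y => hP ⟨y, rfl⟩)
  have k : ∀ d, τ d = 1 ↔ d ∈ center Y := fun d => (QuotientGroup.eq_one_iff _).trans (h.cen' d)
  have e : (center Y).index = Nat.card τ.range := by rw [← index_ker, show τ.ker = center Y from ext k]
  have d := card_subgroup_dvd_card τ.range
  have o : ∀ {p : ℕ} {g : Y}, p.Prime → g ^ p = 1 → g ∉ center Y → p ∣ Nat.card τ.range := fun {p g} hp e n => by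
    have := Fact.mk hp
    exact orderOf_eq_prime (x := τ g) (by rw [← map_pow, e, map_one]) (mt (k g).1 n) ▸
      orderOf_dvd_natCard _ (show τ g ∈ τ.range from ⟨g, rfl⟩)
  rw [e]
  rcases hc with hc | ⟨⟨φ⟩⟩ | hc
  · rw [hc] at d
    exact ⟨fun h => absurd (h.trans d) (by norm_num), fun h => absurd (h.trans d) (by norm_num)⟩
  · have hc : Nat.card (Bar5 P) = 7920 := (Nat.card_congr φ.toEquiv).trans Mathieu.card_M11
    refine ⟨fun h8 => hz ?_, fun h => absurd (h.trans (hc ▸ d)) (by norm_num)⟩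
    have t : τ.range = ⊤ := by
      by_contra n
      have d1 := PSL2Rec.simple_card_dvd_factorial n
      have d2 := τ.range.card_mul_index
      obtain ⟨m, hm⟩ : 8 * 3 * 5 * 11 ∣ Nat.card τ.range :=
        Nat.Coprime.mul_dvd_of_dvd_of_dvd (by norm_num) (Nat.Coprime.mul_dvd_of_dvd_of_dvd (by norm_num)
          (Nat.Coprime.mul_dvd_of_dvd_of_dvd (by norm_num) h8 (o Nat.prime_three hr.ab n3))
          (o Nat.prime_five hr.c5 n2)) (o (by norm_num) hr.a11 n1)
      rw [hc] at d1 d2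
      rw [hm, mul_assoc] at d2
      have : τ.range.index ≤ 6 := Nat.le_of_dvd (by norm_num) (Dvd.intro_left m (by omega))
      exact absurd (d1.trans (Nat.factorial_dvd_factorial this)) (by decide)
    exact no_cover hY (φ.toMonoidHom.comp τ) (φ.surjective.comp (MonoidHom.range_eq_top.1 t))
      (fun d hd => (k d).1 (φ.map_eq_one_iff.1 hd)) odd_one Cfsg.Agent.S2034.result
      (φ.map_eq_one_iff.2 ((QuotientGroup.eq_one_iff _).2 (show ρ z ∈ scalars _ _ from h.z1 ▸ one_mem _))) hr.zz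
  · exact absurd ((o (by norm_num) hr.a11 n1).trans (hc ▸ d)) (by norm_num)

theorem sl_case {F : Type u} [Field F] [Fintype F] {ρ : Y →* GL (Fin 5) F} (hY : commutator Y = ⊤)
    (hzz : z * z = 1) (h : Hy a z ρ) (hs : ρ.range = specialLinear (Fin 5) F) : z = 1 := by
  have rg : (SpecialLinearGroup.toGL : SL(5, F) →* GL (Fin 5) F).range = ρ.range := Classical.sl_range_toGL.trans hs.symm
  let φ : SL(5, F) ≃* ρ.range :=
    (MonoidHom.ofInjective SpecialLinearGroup.toGL_injective).trans (MulEquiv.subgroupCongr rg)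
  refine no_cover hY ((QuotientGroup.mk' (center SL(5, F))).comp (φ.symm.toMonoidHom.comp ρ.rangeRestrict))
    ((QuotientGroup.mk'_surjective _).comp (φ.symm.surjective.comp ρ.rangeRestrict_surjective)) (fun d hd => ?_)
    (Odd.of_dvd_nat (by decide : Odd 5) (Nat.gcd_dvd_left _ _))
    (Cfsg.Agent.S2086.result (F := F) rfl 5 (by norm_num) (by norm_num) (by simp)) ?_ hzz
  · refine h.cen d (mem_scalars_of_comm_env h.env fun y hy => ?_)
    have := congrArg φ (mem_center_iff.1 ((QuotientGroup.eq_one_iff _).1 hd) (φ.symm ⟨y, hy⟩))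
    simp only [map_mul, MulEquiv.coe_toMonoidHom, MonoidHom.comp_apply, MulEquiv.apply_symm_apply] at this
    exact (congrArg Subtype.val this).symm
  · rw [MonoidHom.comp_apply, MonoidHom.comp_apply, show ρ.rangeRestrict z = 1 from Subtype.ext h.z1, map_one, map_one]

theorem core5 (res : ∀ (E : Type u) [Field E] [Fintype E], Res5 E) (hY : commutator Y = ⊤) (hr : Rel a b c z)
    (hz : z ≠ 1) (n : ℕ) : ∀ (F : Type u) [Field F] [Fintype F] (ρ : Y →* GL (Fin 5) F), Fintype.card F = n →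
      Hy a z ρ → ¬ 8 ∣ (center Y).index ∧ ¬ 121 ∣ (center Y).index := by
  induction n using Nat.strong_induction_on with
  | _ n ih =>
  intro F _ _ ρ hn h
  have n1 := (hr.ncen fun e => h.tr (by simp [e])).1
  have pf := range_perfect hY ρ
  have sl : ρ.range ≤ specialLinear (Fin 5) F := pf ▸ commutator_le.2 fun g _ k _ => by
    change GeneralLinearGroup.det ⁅g, k⁆ = 1
    rw [map_commutatorElement, commutatorElement_eq_one_iff_mul_comm, mul_comm]
  obtain ⟨M, hle, hM⟩ := SU5.exists_max sl fun e => hz (sl_case hY hr.zz h (le_antisymm sl e))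
  rcases linear_aschbacher (by norm_num) M with ⟨X, hX, hMX⟩ | hres
  swap
  · obtain ⟨P, hP, hc⟩ := res F h.two M hM hres
    exact res_case hY hr hz h (h.nrm P (fun g hg => hP.normal g (hle hg))
      (not_le_scalars_of_irred (by simp) hP.absIrred.1)) hP.simple hc
  replace hle := hle.trans hMX
  rcases hX with ⟨W, h0, h1, rfl⟩ | ⟨W, U, h0, h1, -, rfl⟩ | ⟨W, U, h0, -, -, h1, rfl⟩ | ⟨t, m, D, hD, rfl⟩ |
    ⟨r, K, hp, hK, rfl⟩ | ⟨n₁, n₂, e, P, h1, h2, -⟩ | ⟨F₀, r, P, hp, hc, rfl⟩ | ⟨r, R, hR, rfl⟩ |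
    ⟨m, t, e, P, h1, h2, -⟩ | ⟨f, -, h1, -⟩ | ⟨σ, f, hf, -⟩ | ⟨Q, hQ, -, -, rfl⟩
  · exact absurd (SU5.red_stab h.irr h0 hle) h1
  · exact absurd (SU5.red_stab h.irr h0 (hle.trans inf_le_left) ▸ h1) not_top_lt
  · rw [SU5.red_stab h.irr h0 (hle.trans inf_le_left)] at h1
    exact absurd (Submodule.finrank_mono le_top) h1.not_ge
  · exact absurd hle (h.no_dec n1 hr.a11 hD)
  · exact absurd hle (h.no_ext hp hK)
  · have := Fintype.card_congr e
    simp only [Fintype.card_fin, Fintype.card_prod] at this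
    nlinarith
  · have : Fintype F₀ := Fintype.ofFinite _
    obtain ⟨ρ₀, h₀⟩ := h.desc hY (Nat.card_eq_fintype_card.trans hc) hle
    refine ih _ ?_ F₀ ρ₀ rfl h₀
    rw [← hn, hc, Nat.card_eq_fintype_card]
    exact lt_self_pow₀ Fintype.one_lt_card hp.one_lt
  · have := Fact.mk hR.symplecticType.prime
    have h1 := h.nrm R (nrm_iff_le_normalizer.2 hle) (not_le_scalars_of_irred (by simp) hR.absIrred.1)
    have := (hR.symplecticType.pGroup.to_le h1).isNilpotent
    exact absurd ((Comp.eq_bot_of_perfect_of_le_solvable pf le_rfl inferInstance).le.trans bot_le) h.ns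
  · have := Fintype.card_congr e
    simp only [Fintype.card_fin, Fintype.card_pi, Finset.prod_const, Finset.card_univ] at this
    have := (Nat.pow_le_pow_left h1 t).trans' (Nat.pow_le_pow_right (by norm_num) h2)
    omega
  · exact absurd h1 (by decide)
  · obtain ⟨q, hq, -⟩ := invol_eq_pow (τ := (σ : F →+* F)) hf.involutive (by
      by_contra! k
      exact hf.ne_refl (RingEquiv.ext k))
    exact absurd (Nat.card_eq_fintype_card.trans hq) (h.nsq q)
  · exact absurd hle (h.no_orth hY hQ)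

end CfsgLib.Wl11
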