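import Mathlib
import Cfsg.Agent.Lib.Wl11.Defs
import Cfsg.Agent.Lib.Tech.SylowIn

/-! The involution `z` is isolated; pure group theory.  See `plans/WL11.md`. -/

set_option autoImplicit false

namespace CfsgLib.Wl11

open Subgroup CfsgLib.Tech

theorem Good.iso {G : Type*} [Group G] {H : Subgroup G} {z : G} (h : Good H z) (hz : z ∈ H) (hzz : z * z = 1)
    {g : G} (hg : g ∈ H) (hc : Commute z (g * z * g⁻¹)) : g * z * g⁻¹ = z := by
  obtain ⟨D, zD, hD, h2, h4⟩ := h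
  by_contra hne
  have hz1 : z ≠ 1 := fun e => hne (by rw [e, mul_one, mul_inv_cancel])
  have m : g * z * g⁻¹ ∈ H := H.mul_mem (H.mul_mem hg hz) (H.inv_mem hg)
  have cc : ∀ g : G, g * z * g⁻¹ * (g * z * g⁻¹) = 1 := fun g => by
    rw [show g * z * g⁻¹ * (g * z * g⁻¹) = g * (z * z) * g⁻¹ by group, hzz, mul_one, mul_inv_cancel]
  have n1 : ∀ g : G, g * z * g⁻¹ ≠ 1 := fun g e => hz1 (by rwa [mul_inv_eq_one, mul_eq_left] at e)
  have kz : ∀ k : G, k * k = z → k * z = z * k := fun k e => by rw [← e, mul_assoc]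
  obtain ⟨k, kH, kk, hd⟩ := (h4 _ m hc.eq.symm (by
    rw [show 4 = 2 * 2 from rfl, pow_mul, pow_two (g * z * g⁻¹), cc, one_pow])).resolve_left fun e =>
      (h2 _ e (cc g)).elim (n1 g) hne
  obtain ⟨d, ed⟩ : ∃ d, k⁻¹ * (g * z * g⁻¹) = d := ⟨_, rfl⟩
  have dH : d ∈ H := ed ▸ H.mul_mem (H.inv_mem kH) m
  rw [ed] at hd
  have dd : d * d = z := by
    have e := cc g
    rw [← mul_inv_cancel_left k (g * z * g⁻¹), ed, mul_assoc, ← mul_assoc d, hD d hd k kH (kz k kk), mul_assoc,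
      ← mul_assoc, kk] at e
    rw [← one_mul (d * d), ← hzz, mul_assoc, e, mul_one]
  have e2 : g⁻¹ * d * g⁻¹⁻¹ * (g⁻¹ * d * g⁻¹⁻¹) = g⁻¹ * z * g⁻¹⁻¹ := by rw [← dd]; group
  have : g⁻¹ * z * g⁻¹⁻¹ ∈ D := by
    rcases h4 _ (H.mul_mem (H.mul_mem (H.inv_mem hg) dH) (H.inv_mem (H.inv_mem hg))) (by
      have := hD d hd _ m hc.eq.symm
      calc g⁻¹ * d * g⁻¹⁻¹ * z = g⁻¹ * (d * (g * z * g⁻¹)) * g := by group
        _ = _ := by rw [this]; group) (by
      rw [show 4 = 2 * 2 from rfl, pow_mul, pow_two (g⁻¹ * d * g⁻¹⁻¹), e2, pow_two, cc]) with a | ⟨l, lH, ll, a⟩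
    · exact e2 ▸ D.mul_mem a a
    · rw [← e2, ← mul_inv_cancel_left l (g⁻¹ * d * g⁻¹⁻¹)]
      generalize l⁻¹ * (g⁻¹ * d * g⁻¹⁻¹) = f at a
      rw [mul_assoc, ← mul_assoc f, hD f a l lH (kz l ll), mul_assoc, ← mul_assoc, ll]
      exact D.mul_mem zD (D.mul_mem a a)
  refine (h2 _ this (cc g⁻¹)).elim (n1 g⁻¹) fun a => hne ?_
  calc g * z * g⁻¹ = g * (g⁻¹ * z * g⁻¹⁻¹) * g⁻¹ := by rw [a]
    _ = z := by group

theorem card_le_four {X : Type*} [Group X] [Finite X] {P Y : Subgroup X} (hP : IsPGroup 2 P) (h : P ≤ Y)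
    (h8 : ¬ 8 ∣ Nat.card Y) : Nat.card P ≤ 4 := by
  obtain ⟨n, hn⟩ := (IsPGroup.iff_card (p := 2)).1 hP
  have := card_dvd_of_le h
  rw [hn] at this ⊢
  by_contra c
  have : 3 ≤ n := by
    by_contra d
    have : n ≤ 2 := by omega
    interval_cases n <;> simp at c
  exact h8 ((pow_dvd_pow 2 this).trans ‹_›)

theorem four {X : Type*} [Group X] [Finite X] (h8 : ¬ 8 ∣ Nat.card X) {b j : X} (bb : b * b = 1) (jj : j * j = 1)
    (bj : b * j = j * b) (b1 : b ≠ 1) (j1 : j ≠ 1) (n : b * j ≠ 1) {e : X} (he : e ^ 4 = 1) :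
    ∃ g, g * e * g⁻¹ = 1 ∨ g * e * g⁻¹ = b ∨ g * e * g⁻¹ = j ∨ g * e * g⁻¹ = b * j := by
  classical
  obtain ⟨P, hP, hle⟩ := exists_isSylowIn_ge (H := ⊤) (IsPGroup.to_sup_of_normal_left'
    (isPGroup_zpowers_of_pow (p := 2) (k := 1) (x := b) (by simpa [pow_two] using bb))
    (isPGroup_zpowers_of_pow (p := 2) (k := 1) (x := j) (by simpa [pow_two] using jj))
    (zpowers_le_of_mem (mem_normalizer_of_forall (by
      rintro _ ⟨k, rfl⟩
      refine ⟨k, ?_⟩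
      change b ^ k = j * b ^ k * j⁻¹
      rw [← conj_zpow, ← bj, mul_inv_cancel_right])))) le_top
  obtain ⟨g, -, hg⟩ := hP.exists_conj_mem (mem_top e) (isPGroup_zpowers_of_pow (p := 2) (k := 2) he)
  refine ⟨g, ?_⟩
  by_contra! c
  have mb : b ∈ P := hle (mem_sup_left (mem_zpowers b))
  have mj : j ∈ P := hle (mem_sup_right (mem_zpowers j))
  have := card_le_four hP.pgroup le_top (by rwa [card_top])
  have k := Set.ncard_le_ncard (s := {g * e * g⁻¹, 1, b, j, b * j}) (t := (P : Set X)) (by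
    rintro _ (rfl | rfl | rfl | rfl | rfl)
    exacts [hg, P.one_mem, mb, mj, P.mul_mem mb mj])
  have e1 : b ≠ j := fun e => n (e ▸ bb)
  rw [Set.ncard_insert_of_notMem (by simp [c]), Set.ncard_insert_of_notMem (by simp [b1.symm, j1.symm, n.symm]),
    Set.ncard_insert_of_notMem (by simp [e1, j1]), Set.ncard_insert_of_notMem (by simp [b1]), Set.ncard_singleton,
    ← Nat.card_coe_set_eq] at k
  change _ ≤ Nat.card P at k
  omega

theorem syl {X : Type*} [Group X] [Finite X] {a b c z : X} (hr : Rel a b c z) (hz1 : z ≠ 1) {D : Subgroup X}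
    (hD : D ≤ center X) (hz : z ∈ D) (h8 : ¬ 8 ∣ D.index) {e : X} (he : e ^ 4 = 1) :
    e ∈ D ∨ ∃ k, k * k = z ∧ k⁻¹ * e ∈ D := by
  have : D.Normal := ⟨fun d hd g => by rwa [mem_center_iff.1 (hD hd), mul_inv_cancel_right]⟩
  have zc := mem_center_iff.1 (hD hz)
  obtain ⟨j, ej⟩ : ∃ j, j = a ^ 3 * b * (a ^ 3)⁻¹ := ⟨_, rfl⟩
  have jj : j * j = z := by
    rw [ej, show a ^ 3 * b * (a ^ 3)⁻¹ * (a ^ 3 * b * (a ^ 3)⁻¹) = a ^ 3 * (b * b) * (a ^ 3)⁻¹ by group, hr.bb, zc,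
      mul_inv_cancel_right]
  have bj : b * j * (b * j) = z := by
    rw [← hr.q8, ej, show (a ^ 3)⁻¹ = a ^ 8 from inv_eq_of_mul_eq_one_right (by rw [← pow_add, hr.a11]), pow_two]
    simp only [mul_assoc]
  have nc : b * j ≠ j * b := fun e => hz1 (by
    rw [← bj, mul_assoc, ← mul_assoc j, ← e, mul_assoc, jj, ← mul_assoc, hr.bb, hr.zz])
  have k1 : ∀ {k : X}, k * k = z → (k : X ⧸ D) * k = 1 := fun e => by
    rw [← QuotientGroup.mk_mul, e, QuotientGroup.eq_one_iff]; exact hz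
  have k2 : ∀ {k : X}, (k : X ⧸ D) = 1 → ∀ g, g * k = k * g := fun e =>
    mem_center_iff.1 (hD ((QuotientGroup.eq_one_iff _).1 e))
  obtain ⟨g, hg⟩ := four (X := X ⧸ D) h8 (k1 hr.bb) (k1 jj) (by
      have := k1 bj
      rw [QuotientGroup.mk_mul] at this
      rw [← inv_eq_of_mul_eq_one_right this, mul_inv_rev, inv_eq_of_mul_eq_one_right (k1 hr.bb),
        inv_eq_of_mul_eq_one_right (k1 jj)])
    (fun e => nc (k2 e j).symm) (fun e => nc (k2 e b))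
    (fun e => nc (mul_left_cancel (a := b) (by rw [k2 (k := b * j) e b, mul_assoc])))
    (e := e) (by rw [← QuotientGroup.mk_pow, he, QuotientGroup.mk_one])
  obtain ⟨g, rfl⟩ := QuotientGroup.mk_surjective g
  have k3 : ∀ {k : X}, k * k = z → (g : X ⧸ D) * e * (g : X ⧸ D)⁻¹ = k → ∃ k, k * k = z ∧ k⁻¹ * e ∈ D := fun {k} e1 e2 =>
    ⟨g⁻¹ * k * g, by rw [show g⁻¹ * k * g * (g⁻¹ * k * g) = g⁻¹ * (k * k) * g by group, e1, zc, inv_mul_cancel_right], by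
      rw [← QuotientGroup.eq, QuotientGroup.mk_mul, QuotientGroup.mk_mul, ← e2, QuotientGroup.mk_inv]; group⟩
  rcases hg with h | h | h | h
  · rw [mul_inv_eq_one, mul_eq_left, QuotientGroup.eq_one_iff] at h
    exact Or.inl h
  exacts [Or.inr (k3 hr.bb h), Or.inr (k3 jj h), Or.inr (k3 bj h)]

/-- the index of the normal closure is odd -/
theorem idx {X : Type*} [Group X] [Finite X] {Y : Subgroup X} [Y.Normal] {a c : X} (ha : a ∈ Y) (hc : c ∈ Y)
    (a11 : a ^ 11 = 1) (c5 : c ^ 5 = 1) (ca : c * a * c⁻¹ = a ^ 5) (h8 : ¬ 8 ∣ Nat.card Y) (h121 : ¬ 121 ∣ Nat.card Y)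
    (hi : ∀ g, g * a * g⁻¹ ≠ a⁻¹) (hab : ∀ g h : X, g * a = a * g → h * a = a * h → g * h = h * g)
    (ht : ∀ g : X, g * g = 1 → g * a = a * g → g * c = c * g → g = 1) : ¬ 8 ∣ Nat.card X := by
  have : Fact (Nat.Prime 11) := ⟨by norm_num⟩
  have o : orderOf a = 11 := orderOf_eq_prime a11 fun e => hi 1 (by simp [e])
  have hS : IsSylowIn 11 (zpowers a) Y := ⟨zpowers_le_of_mem ha, isPGroup_zpowers_of_pow (k := 1) a11, fun ⟨m, e⟩ =>
    h121 ⟨m, by rw [← card_mul_relIndex' (zpowers_le_of_mem ha), Nat.card_zpowers, o, e]; ring⟩⟩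
  have cp : ∀ m : ℕ, c ^ m * a * (c ^ m)⁻¹ = a ^ 5 ^ m := fun m => by
    induction m with
    | zero => simp
    | succ m ih =>
      rw [pow_succ', show c * c ^ m * a * (c * c ^ m)⁻¹ = c * (c ^ m * a * (c ^ m)⁻¹) * c⁻¹ by group, ih, ← conj_pow,
        ca, ← pow_mul, pow_succ']
  let C := centralizer ({a} : Set X)
  have top : C ⊔ Y = ⊤ := eq_top_iff.2 fun g _ => by
    obtain ⟨n, hn, e⟩ := hS.frattini (g := g) (le_normalizer_of_normal (mem_top g))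
    obtain ⟨k, hk⟩ := (isOfFinOrder_of_finite a).mem_powers_iff_mem_zpowers.2
      (conj_mem_of_mem_normalizer e (mem_zpowers a))
    replace hk : a ^ (k % 11) = n * g * a * (n * g)⁻¹ := by rw [← pow_eq_pow_mod _ a11]; exact hk
    have key : ∀ m : ℕ, c ^ m * (n * g) * a * (c ^ m * (n * g))⁻¹ = a ^ (5 ^ m * (k % 11) % 11) := fun m => by
      rw [show c ^ m * (n * g) * a * (c ^ m * (n * g))⁻¹ = c ^ m * (n * g * a * (n * g)⁻¹) * (c ^ m)⁻¹ by group, ← hk,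
        ← conj_pow, cp, ← pow_mul, ← pow_eq_pow_mod _ a11]
    obtain h0 | ⟨m, -, h1 | h1⟩ := (by decide : ∀ k < 11, k = 0 ∨ ∃ m < 5, 5 ^ m * k % 11 = 1 ∨ 5 ^ m * k % 11 = 10) _
      (Nat.mod_lt k (by norm_num))
    · rw [h0, pow_zero, eq_comm, mul_inv_eq_one, mul_eq_left] at hk
      exact absurd (by simp [hk]) (hi 1)
    · have := key m
      rw [h1, pow_one, mul_inv_eq_iff_eq_mul] at this
      have m1 : c ^ m * (n * g) ∈ C ⊔ Y := mem_sup_left (mem_centralizer_singleton_iff.2 this)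
      rwa [← mul_assoc, mul_mem_cancel_left (mem_sup_right (Y.mul_mem (Y.pow_mem hc m) hn))] at m1
    · exact absurd ((key m).trans (by rw [h1]; exact eq_inv_of_mul_eq_one_left (by rw [← pow_succ, a11]))) (hi _)
  have mC : ∀ g, g ∈ C ↔ g * a = a * g := fun g => mem_centralizer_singleton_iff
  have cC : ∀ g ∈ C, c * g * c⁻¹ ∈ C := fun g hg => (mC _).2 (by
    have e : c⁻¹ * a * c = a ^ 5 ^ 4 := by
      rw [← cp, show c⁻¹ = c ^ 4 from inv_eq_of_mul_eq_one_right (by rw [← pow_succ', c5]),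
        show (c ^ 4)⁻¹ = c from inv_eq_of_mul_eq_one_right (by rw [← pow_succ, c5])]
    calc c * g * c⁻¹ * a = c * (g * (c⁻¹ * a * c)) * c⁻¹ := by group
      _ = c * ((c⁻¹ * a * c) * g) * c⁻¹ := by rw [e, (Commute.pow_right ((mC g).1 hg) _).eq]
      _ = _ := by group)
  let V : Subgroup X :=
    { carrier := {g | g ∈ C ∧ g * g = 1}
      one_mem' := ⟨C.one_mem, one_mul 1⟩
      inv_mem' := fun h => ⟨C.inv_mem h.1, by rw [← mul_inv_rev, h.2, inv_one]⟩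
      mul_mem' := fun {g h} hg hh => ⟨C.mul_mem hg.1 hh.1, by
        rw [mul_assoc, ← mul_assoc h, ← hab g h ((mC g).1 hg.1) ((mC h).1 hh.1), mul_assoc, hh.2, mul_one, hg.2]⟩ }
  have cV : ∀ g ∈ V, c * g * c⁻¹ ∈ V := fun g hg => ⟨cC g hg.1, by
    rw [show c * g * c⁻¹ * (c * g * c⁻¹) = c * (g * g) * c⁻¹ by group, hg.2, mul_one, mul_inv_cancel]⟩
  have fix : ∀ w ∈ V ⊓ Y, c * w * c⁻¹ = w := fun w hw => by
    have nrm : c ∈ normalizer ((V ⊓ Y : Subgroup X) : Set X) := mem_normalizer_of_forall fun x hx =>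
      ⟨cV x hx.1, ‹Y.Normal›.conj_mem x hx.2 c⟩
    have le4 := card_le_four (P := V ⊓ Y) (isPGroup_iff_mem.2 fun g hg => ⟨1, by simpa [pow_two] using hg.1.2⟩)
      inf_le_right h8
    let φ := (MulAut.toPerm _).comp (V ⊓ Y).normalizerMonoidHom
    have d1 : orderOf (φ ⟨c, nrm⟩) ∣ 5 := orderOf_dvd_of_pow_eq_one (by
      rw [← map_pow, show (⟨c, nrm⟩ : normalizer _) ^ 5 = 1 from Subtype.ext c5, map_one])
    have d2 := orderOf_dvd_natCard (φ ⟨c, nrm⟩)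
    rw [Nat.card_perm] at d2
    have : φ ⟨c, nrm⟩ = 1 := orderOf_eq_one_iff.1 (Nat.eq_one_of_dvd_coprimes (by norm_num : Nat.Coprime 5 24) d1
      (d2.trans (Nat.factorial_dvd_factorial le4)))
    exact congrArg Subtype.val (Equiv.congr_fun this ⟨w, hw⟩)
  have odd : ¬ 2 ∣ Nat.card C := fun h => by
    obtain ⟨⟨g, hg⟩, og⟩ := exists_prime_orderOf_dvd_card' 2 h
    have gg : g * g = 1 := by
      have := congrArg Subtype.val (pow_orderOf_eq_one (⟨g, hg⟩ : C))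
      rwa [og, Subgroup.coe_pow, pow_two] at this
    have gV : g ∈ V := ⟨hg, gg⟩
    obtain ⟨w, ew⟩ : ∃ w, w = c * g * c⁻¹ * g⁻¹ := ⟨_, rfl⟩
    have wV : w ∈ V ⊓ Y := ew ▸ ⟨V.mul_mem (cV g gV) (V.inv_mem gV), by
      rw [mul_assoc, mul_assoc, ← mul_assoc g]
      exact Y.mul_mem hc (‹Y.Normal›.conj_mem _ (Y.inv_mem hc) g)⟩
    have it : ∀ m : ℕ, c ^ m * g * (c ^ m)⁻¹ = w ^ m * g := fun m => by
      induction m with
      | zero => simp
      | succ m ih =>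
        rw [pow_succ', show c * c ^ m * g * (c * c ^ m)⁻¹ = c * (c ^ m * g * (c ^ m)⁻¹) * c⁻¹ by group, ih, ← conj_mul,
          ← conj_pow, fix w wV, pow_succ, mul_assoc (w ^ m), ← eq_mul_inv_iff_mul_eq.1 ew]
    have w5 := it 5
    rw [c5, one_mul, inv_one, mul_one, eq_comm, mul_eq_right] at w5
    have w1 : w = 1 := (pow_eq_one_iff_of_coprime (by norm_num : Nat.Coprime 5 2)).1 ⟨w5, (pow_two w).trans wV.1.2⟩
    rw [w1, eq_comm, mul_inv_eq_one, mul_inv_eq_iff_eq_mul] at ew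
    rw [show (⟨g, hg⟩ : C) = 1 from Subtype.ext (ht g gg ((mC g).1 hg) ew.symm), orderOf_one] at og
    omega
  intro h
  have e : Y.index ∣ Nat.card C := by
    rw [← relIndex_top_right, ← top, relIndex_sup_right]
    exact relIndex_dvd_card _ _
  rw [← Y.card_mul_index] at h
  exact h8 ((Nat.Coprime.pow_left 3 ((Nat.Prime.coprime_iff_not_dvd Nat.prime_two).2 fun k => odd (k.trans e))
    ).dvd_of_dvd_mul_right h)

end CfsgLib.Wl11
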