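import Mathlib
import Cfsg.Agent.Lib.Wl11.Dim5
import Cfsg.Agent.Lib.Wl11.Lf2
import Cfsg.Agent.Lib.Wl11.Iso

/-! From a five-dimensional representation of the centraliser of `z` to `Good`.  See `plans/WL11.md`. -/

set_option autoImplicit false

namespace CfsgLib.Wl11

open Matrix Subgroup Cfsg Cfsg.Geo CfsgLib.Asch
open CfsgLib.Wl7 (mem3 closure3_le)
open scoped commutatorElement MatrixGroups

universe u v

theorem eq_of_sc {F : Type u} [Field F] {x y : GL (Fin 5) F} (h : x * y⁻¹ ∈ scalars (Fin 5) F)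
    (hd : GeneralLinearGroup.det x = GeneralLinearGroup.det y) {m : ℕ} (hm : Nat.Coprime m 5)
    (hp : (x * y⁻¹) ^ m = 1) : x = y := by
  obtain ⟨c, hc⟩ := mem_scalars_iff_sc.1 h
  have h5 : c ^ 5 = 1 := Units.ext (by
    have := congrArg (fun g => (GeneralLinearGroup.det g : F)) hc
    simp only [map_mul, map_inv, hd, mul_inv_cancel] at this
    simpa [coe_sc] using this)
  rw [← mul_inv_eq_one, ← hc]
  exact (pow_eq_one_iff_of_coprime hm).1 ⟨hc ▸ hp, by rw [← map_pow, h5, map_one]⟩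

theorem eq_of_sc11 {F : Type u} [Field F] {x y : GL (Fin 5) F} (h : x * y⁻¹ ∈ scalars (Fin 5) F)
    (hd : GeneralLinearGroup.det x = GeneralLinearGroup.det y) (hx : x ^ 11 = 1) (hy : y ^ 11 = 1) : x = y :=
  eq_of_sc h hd (m := 11) (by norm_num) (by
    have := (commute_of_mem_scalars h y).symm.mul_pow 11
    rwa [inv_mul_cancel_right, hx, hy, mul_one, eq_comm] at this)

theorem idx5 {F : Type u} [Field F] [Fintype F] (res : ∀ (E : Type u) [Field E] [Fintype E], Res5 E) (hf : Fld F)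
    (h11 : (11 : F) ≠ 0) {Γ : Type v} [Group Γ] [Finite Γ] (ρ : Γ →* GL (Fin 5) F) {a b c z : Γ} (hz1 : z ≠ 1)
    (hr : Rel a b c z) (h1 : ρ z = 1) (he : env (closure {ρ a, ρ c}) = ⊤)
    (htr : (ρ a).1.trace ≠ ((ρ a)⁻¹).1.trace) (hd : ∃ d : Fin 5 → F, Function.Injective d ∧ (ρ a).1 = diagonal d)
    (hk : ∀ d, ρ d ∈ scalars (Fin 5) F → d ∈ center Γ) : ¬ 8 ∣ ((scalars (Fin 5) F).comap ρ).index := by
  have hr' := hr.map ρ
  have he' : env (closure {ρ a, ρ b, ρ c}) = ⊤ := top_le_iff.1 (he.ge.trans (env_mono ((closure_le _).2 (by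
    rintro _ (rfl | rfl); exacts [(mem3 _ _ _).1, (mem3 _ _ _).2.2]))))
  let Y := normalClosure ({a} : Set Γ)
  have aY : a ∈ Y := subset_normalClosure rfl
  have KY : closure {a, b, c} ≤ Y := hr.nc aY fun k _ m hm => normalClosure_normal.conj_mem m hm k
  obtain ⟨-, bY, cY⟩ := (mem3 a b c).imp_right (And.imp (@KY _) (@KY _))
  have pY : commutator Y = ⊤ := map_injective Y.subtype_injective (by
    rw [map_subtype_commutator, ← MonoidHom.range_eq_map, range_subtype]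
    exact le_antisymm (commutator_le_self _) (normalClosure_le_normal (by
      rintro _ rfl
      exact commutator_mono KY KY (hr.perfect.ge (mem3 _ b c).1))))
  have hy : Hy (⟨a, aY⟩ : Y) ⟨z, KY hr.zmem⟩ (ρ.comp Y.subtype) := by
    refine ⟨hf.two, hf.nsq, h1, fun d hd => mem_center_iff.2 fun g => Subtype.ext (mem_center_iff.1 (hk d hd) g), htr,
      top_le_iff.1 (he'.ge.trans (env_mono (closure3_le ⟨⟨a, aY⟩, rfl⟩ ⟨⟨b, bY⟩, rfl⟩ ⟨⟨c, cY⟩, rfl⟩))),
      fun N hN hs => ?_⟩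
    rintro _ ⟨⟨y, hy⟩, rfl⟩
    refine (closure_le (N.comap ρ)).2 (fun x hx => ?_) hy
    obtain ⟨_, rfl, hg⟩ := Group.mem_conjugatesOfSet_iff.1 hx
    obtain ⟨g, rfl⟩ := isConj_iff.1 hg
    have := lemF (Or.inl rfl) hf.two h11 hr' he' (N := N.comap (MulAut.conj (ρ g)).toMonoidHom) (fun k hk n hn => by
      obtain ⟨l, hl, rfl⟩ := closure3_le (M := Y.map ρ) ⟨_, aY, rfl⟩ ⟨b, bY, rfl⟩ ⟨c, cY, rfl⟩ hk
      have := hN _ ⟨⟨_, normalClosure_normal.conj_mem l hl g⟩, rfl⟩ _ hn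
      rw [mem_comap]
      convert this using 1
      simp [mul_assoc]) (fun e => hs fun n hn => by
        have := scalars_normal.conj_mem _ (e (show (ρ g)⁻¹ * n * ρ g ∈ _ by simpa [mul_assoc] using hn)) (ρ g)
        simpa [mul_assoc] using this) (mem3 _ _ _).1
    simpa using this
  have hrY : Rel (⟨a, aY⟩ : Y) ⟨b, bY⟩ ⟨c, cY⟩ ⟨z, KY hr.zmem⟩ := Rel.of_map (f := Y.subtype) Y.subtype_injective hr
  obtain ⟨c8, c121⟩ := core5 res pY hrY
    (fun e => hz1 (congrArg Subtype.val e)) _ F _ rfl hy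
  let π := QuotientGroup.mk' ((scalars (Fin 5) F).comap ρ)
  have sπ : Function.Surjective π := QuotientGroup.mk'_surjective _
  have k : ∀ {x y : Γ}, π x = π y ↔ ρ x * (ρ y)⁻¹ ∈ scalars (Fin 5) F := fun {x y} => by
    rw [← mul_inv_eq_one, ← map_inv, ← map_mul, ← map_inv, ← map_mul]
    exact QuotientGroup.eq_one_iff _
  have e : Nat.card (Y.map π) = (center Y).index := by
    rw [← show (π.comp Y.subtype).ker = center Y from ext fun d => (QuotientGroup.eq_one_iff d.1).trans (hy.cen' d),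
      index_ker, MonoidHom.range_comp, range_subtype]
  have : (Y.map π).Normal := normalClosure_normal.map π sπ
  have dc : ∀ g x : Γ, GeneralLinearGroup.det (ρ (g * x * g⁻¹)) = GeneralLinearGroup.det (ρ x) := fun g x => by
    simp only [map_mul, map_inv, mul_inv_cancel_comm]
  have a11 : ∀ g : Γ, ρ (g * a * g⁻¹) ^ 11 = 1 := fun g => by rw [← map_pow, conj_pow, hr.a11]; simp
  have ca : ∀ g : Γ, π g * π a = π a * π g → ρ g * ρ a = ρ a * ρ g := fun g hg => by
    rw [← mul_inv_eq_iff_eq_mul, ← map_inv, ← map_mul, ← map_mul] at hg ⊢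
    exact eq_of_sc11 (k.1 hg) (dc g a) (a11 g) hr'.a11
  have hr2 := hr.map π
  refine idx (Y := Y.map π) ⟨a, aY, rfl⟩ ⟨c, cY, rfl⟩ hr2.a11 hr2.c5 hr2.ca (e ▸ c8) (e ▸ c121) (fun g hg => ?_)
    (fun g h hg hh => ?_) fun g gg hg hc => ?_
  · obtain ⟨g, rfl⟩ := sπ g
    rw [← map_inv, ← map_mul, ← map_mul, ← map_inv] at hg
    have da : GeneralLinearGroup.det (ρ a) = 1 := by
      have d1 := dc c a
      rw [hr.ca, map_pow, map_pow, pow_succ, mul_eq_right] at d1
      exact (pow_eq_one_iff_of_coprime (by norm_num : Nat.Coprime 11 4)).1 ⟨by rw [← map_pow, hr'.a11, map_one], d1⟩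
    have := eq_of_sc11 (k.1 hg) (by rw [dc, map_inv, map_inv, da, inv_one]) (a11 g)
      (by rw [map_inv, inv_pow, hr'.a11, inv_one])
    refine htr ?_
    rw [← map_inv, ← this, map_mul, map_mul, map_inv, Units.val_mul, Units.val_mul, trace_units_conj]
  · obtain ⟨g, rfl⟩ := sπ g
    obtain ⟨h, rfl⟩ := sπ h
    obtain ⟨d, di, ed⟩ := hd
    have dg : ∀ g : Γ, π g * π a = π a * π g → (ρ g).1 = diagonal (ρ g).1.diag := fun g hg => by
      have := congrArg Units.val (ca g hg)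
      rw [Units.val_mul, Units.val_mul, ed] at this
      ext i j
      by_cases n : i = j
      · simp [n]
      · have := congrFun (congrFun this i) j
        rw [mul_diagonal, diagonal_mul, mul_comm] at this
        rw [diagonal_apply_ne _ n]
        exact (mul_eq_mul_right_iff.1 this).resolve_left fun e => n (di e).symm
    rw [← map_mul, ← map_mul, k, show ρ (g * h) = ρ (h * g) from Units.ext (by
      rw [map_mul, map_mul, Units.val_mul, Units.val_mul, dg g hg, dg h hh, diagonal_mul_diagonal,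
        diagonal_mul_diagonal]
      simp only [mul_comm]), mul_inv_cancel]
    exact one_mem _
  · obtain ⟨g, rfl⟩ := sπ g
    rw [← mul_inv_eq_iff_eq_mul, ← map_inv, ← map_mul, ← map_mul, k] at hc
    have g2 := mem_center_iff.1 (hk (g * g) ((QuotientGroup.eq_one_iff (g * g)).1 ((map_mul π g g).trans gg))) c
    have cc := eq_of_sc hc (dc g c) (m := 2) (by norm_num) (by
      obtain ⟨l, hl⟩ : ∃ l, l = ρ (g * c * g⁻¹) * (ρ c)⁻¹ := ⟨_, rfl⟩
      rw [← hl] at hc ⊢
      have e1 : ρ g * ρ c * (ρ g)⁻¹ = l * ρ c := by rw [hl, inv_mul_cancel_right, map_mul, map_mul, map_inv]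
      have e2 : ρ g * (ρ g * ρ c * (ρ g)⁻¹) * (ρ g)⁻¹ = ρ c := by
        rw [← map_inv, ← map_mul, ← map_mul, ← map_mul, ← map_mul]
        congr 1
        calc g * (g * c * g⁻¹) * g⁻¹ = g * g * c * (g * g)⁻¹ := by group
          _ = c := by rw [← g2, mul_inv_cancel_right]
      rw [e1, ← mul_assoc, ← mul_comm_of_mem_scalars hc, mul_assoc l, mul_assoc l, e1, ← mul_assoc, mul_eq_right] at e2
      rw [pow_two, e2])
    refine (QuotientGroup.eq_one_iff _).2 (mem_scalars_of_comm_env he fun y hy => ?_)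
    refine (mem_centralizer_singleton_iff.1 ((closure_le (centralizer {ρ g})).2 ?_ hy)).symm
    rintro _ (rfl | rfl)
    · exact mem_centralizer_singleton_iff.2 (ca g hg).symm
    · rw [map_mul, map_mul, map_inv, mul_inv_eq_iff_eq_mul] at cc
      exact mem_centralizer_singleton_iff.2 cc.symm

theorem good_of {F : Type u} [Field F] [Fintype F] (res : ∀ (E : Type u) [Field E] [Fintype E], Res5 E) (hf : Fld F)
    (h11 : (11 : F) ≠ 0) {G Γ : Type v} [Group G] [Group Γ] [Finite Γ]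
    {H : Subgroup G} {z : G} (j : Γ →* G) (hjr : j.range = H ⊓ centralizer {z})
    (ρ : Γ →* GL (Fin 5) F) {a b c z' : Γ} (hj : Function.Injective j) (hz : j z' = z) (hz1 : z' ≠ 1)
    (hr : Rel a b c z') (h1 : ρ z' = 1) (he : env (closure {ρ a, ρ c}) = ⊤)
    (htr : (ρ a).1.trace ≠ ((ρ a)⁻¹).1.trace) (hd : ∃ d : Fin 5 → F, Function.Injective d ∧ (ρ a).1 = diagonal d)
    (hk : ∀ d, ρ d ∈ scalars (Fin 5) F → (∀ e, d * e = e * d) ∧ (d * d = 1 → d = 1 ∨ d = z')) : Good H z := by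
  have hc : ∀ d, ρ d ∈ scalars (Fin 5) F → d ∈ center Γ := fun d hd => mem_center_iff.2 fun e => ((hk d hd).1 e).symm
  have zD : z' ∈ (scalars (Fin 5) F).comap ρ := by rw [mem_comap, h1]; exact one_mem _
  have sj : ∀ e ∈ H, e * z = z * e → ∃ g, j g = e := fun e he h => hjr.ge ⟨he, mem_centralizer_singleton_iff.2 h⟩
  refine ⟨((scalars (Fin 5) F).comap ρ).map j, ⟨z', zD, hz⟩, ?_, ?_, fun e eH ez e4 => ?_⟩
  · rintro _ ⟨d, hd, rfl⟩ e eH ez
    obtain ⟨e, rfl⟩ := sj e eH ez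
    rw [← map_mul, (hk d hd).1, map_mul]
  · rintro _ ⟨d, hd, rfl⟩ dd
    exact ((hk d hd).2 (hj (by rw [map_mul, dd, map_one]))).imp (fun e => by rw [e, map_one]) fun e => by rw [e, hz]
  · obtain ⟨e, rfl⟩ := sj e eH ez
    exact (syl hr hz1 hc zD (idx5 res hf h11 ρ hz1 hr h1 he htr hd hc) (hj (by rw [map_pow, e4, map_one]))).imp
      (mem_map_of_mem j) fun ⟨k, kk, hk⟩ => ⟨j k, (hjr.le ⟨k, rfl⟩).1, by rw [← map_mul, kk, hz],
        k⁻¹ * e, hk, by rw [map_mul, map_inv]⟩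

end CfsgLib.Wl11
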