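import Mathlib
import Cfsg.Agent.Lib.Wl11.Defs
import Cfsg.Agent.Lib.Wl7.Lf1
import Cfsg.Agent.Lib.Wl7.Nu

/-! Elements of order eleven in dimension at most six.  See `plans/WL11.md`. -/

set_option autoImplicit false
set_option linter.unusedSectionVars false

namespace CfsgLib.Wl11

open Matrix Subgroup Cfsg Cfsg.Geo CfsgLib.Asch CfsgLib.Wl5
open CfsgLib.Wl7 (nu_mem nu_add nu_det nu_not_cyclic)
open CfsgLib.Wl7.LF1
open scoped commutatorElement MatrixGroups

variable {F : Type*} [Field F] [Finite F] {ι : Type} [Fintype ι] [DecidableEq ι]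

theorem nu_one (hι : Fintype.card ι = 5 ∨ Fintype.card ι = 6) (h2 : (2 : F) ≠ 0) {ν : Matrix ι ι F} (h : ν * ν = 1) (hd : ν.det = 1)
    (h1 : ν ≠ 1) (h1' : ν ≠ -1) : Module.finrank F (LinearMap.ker (toLin' (ν - 1))) ≤ 4 ∧
      Module.finrank F (LinearMap.ker (toLin' (ν + 1))) ≤ 4 := by
  have a := nu_add h2 ν
  have b : Even (Module.finrank F (LinearMap.ker (toLin' (ν + 1)))) := by
    by_contra c
    rw [nu_det h, (Nat.not_even_iff_odd.1 c).neg_one_pow] at hd
    exact h2 (by linear_combination -hd)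
  have c : Module.finrank F (LinearMap.ker (toLin' (ν + 1))) ≠ 0 := fun e => h1 (by
    rw [Submodule.finrank_eq_zero] at e
    refine toLin'.injective (LinearMap.ext fun v => ?_)
    have : ν *ᵥ v - v ∈ LinearMap.ker (toLin' (ν + 1)) := by
      rw [nu_mem.2, mulVec_sub, mulVec_mulVec, h, one_mulVec, neg_sub]
    rw [e, Submodule.mem_bot, sub_eq_zero] at this
    simpa using this)
  have d : Module.finrank F (LinearMap.ker (toLin' (ν - 1))) ≠ 0 := fun e => h1' (by
    rw [Submodule.finrank_eq_zero] at e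
    refine toLin'.injective (LinearMap.ext fun v => ?_)
    have : ν *ᵥ v + v ∈ LinearMap.ker (toLin' (ν - 1)) := by
      rw [nu_mem.1, mulVec_add, mulVec_mulVec, h, one_mulVec, add_comm]
    rw [e, Submodule.mem_bot, add_eq_zero_iff_eq_neg] at this
    simpa [neg_mulVec] using this)
  obtain ⟨m, hm⟩ := b
  omega

theorem nu_two (hι : Fintype.card ι ≤ 6) (h2 : (2 : F) ≠ 0) {ν k : Matrix ι ι F} (hk : k * k = -1)
    (h : k * ν = -(ν * k)) : Module.finrank F (LinearMap.ker (toLin' (ν - 1))) ≤ 4 ∧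
      Module.finrank F (LinearMap.ker (toLin' (ν + 1))) ≤ 4 := by
  have a := nu_add h2 ν
  have inj : Function.Injective (toLin' k) := fun v w e => by
    have := congrArg (k *ᵥ ·) e
    simpa [mulVec_mulVec, hk, neg_mulVec] using this
  have key : ∀ v, ν *ᵥ k *ᵥ v = -(k *ᵥ ν *ᵥ v) := fun v => by
    rw [mulVec_mulVec, mulVec_mulVec, h, neg_mulVec, neg_neg]
  have le : ∀ {U W : Submodule F (ι → F)}, (∀ v ∈ U, toLin' k v ∈ W) → Module.finrank F U ≤ Module.finrank F W :=
    fun hUW => LinearMap.finrank_le_finrank_of_injective (f := (toLin' k).restrict hUW) fun v w e =>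
      Subtype.ext (inj (congrArg Subtype.val e))
  have b := le (U := LinearMap.ker (toLin' (ν - 1))) (W := LinearMap.ker (toLin' (ν + 1))) fun v hv => by
    rw [nu_mem.2, toLin'_apply, key, nu_mem.1.1 hv]
  have c := le (U := LinearMap.ker (toLin' (ν + 1))) (W := LinearMap.ker (toLin' (ν - 1))) fun v hv => by
    rw [nu_mem.1, toLin'_apply, key, nu_mem.2.1 hv, mulVec_neg, neg_neg]
  omega

theorem exists_nu (hι : Fintype.card ι = 5 ∨ Fintype.card ι = 6) (h2 : (2 : F) ≠ 0) {D : Subgroup (GL ι F)}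
    (hD : ⁅D, D⁆ = D) (h0 : D ≠ ⊥) (T : Sylow 2 D) : ∃ ν : Matrix ι ι F, ν * ν = 1 ∧
      Module.finrank F (LinearMap.ker (toLin' (ν - 1))) ≤ 4 ∧
      Module.finrank F (LinearMap.ker (toLin' (ν + 1))) ≤ 4 ∧
      ∀ g : GL ι F, (∀ t : D, t ∈ T → g * t = t * g) → g.1 * ν = ν * g.1 := by
  have h4 : Fintype.card ι ≤ 6 := by omega
  have : Nontrivial D := (nontrivial_iff_ne_bot D).2 h0
  have pf : commutator D = ⊤ := map_injective D.subtype_injective (by
    rw [map_subtype_commutator, hD, ← MonoidHom.range_eq_map, range_subtype])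
  have nc := nu_not_cyclic pf T
  have sl : ∀ g ∈ D, g.1.det = 1 := fun g hg => by
    have : D ≤ specialLinear ι F := hD ▸ commutator_le.2 fun g _ k _ => by
      change GeneralLinearGroup.det ⁅g, k⁆ = 1
      rw [map_commutatorElement, commutatorElement_eq_one_iff_mul_comm, mul_comm]
    exact congrArg Units.val (this hg)
  let φ : (T : Subgroup D) →* Matrix ι ι F := (Units.coeHom _).comp (D.subtype.comp (T : Subgroup D).subtype)
  have inj : Function.Injective φ := fun a b e => Subtype.ext (Subtype.ext (Units.ext e))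
  have cm : ∀ g : GL ι F, (∀ t : D, t ∈ T → g * t = t * g) → ∀ a, g.1 * φ a = φ a * g.1 := fun g hg a =>
    congrArg Units.val (hg a.1 a.2)
  by_cases hn : ∃ a, a * a = 1 ∧ a ≠ 1 ∧ φ a ≠ -1
  · obtain ⟨a, a2, a1, a1'⟩ := hn
    have e : φ a * φ a = 1 := by rw [← map_mul, a2, map_one]
    obtain ⟨k1, k2⟩ := nu_one hι h2 e (sl _ a.1.2) (fun e => a1 (inj (e.trans (map_one φ).symm))) a1'
    exact ⟨φ a, e, k1, k2, fun g hg => cm g hg a⟩
  push Not at hn
  have two : ∀ H : Subgroup (T : Subgroup D), Nat.card H = 2 → ∀ a ∈ H, a ≠ 1 → φ a = -1 := fun H hH a ha a1 =>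
    hn a (by
      have := congrArg Subtype.val (pow_card_eq_one' (x := (⟨a, ha⟩ : H)))
      rwa [hH, pow_two] at this) a1
  have le : ∀ H K : Subgroup (T : Subgroup D), Nat.card H = 2 → Nat.card K = 2 → H ≤ K := fun H K hH hK a ha => by
    by_cases a1 : a = 1
    · rw [a1]; exact one_mem K
    have : K ≠ ⊥ := fun e => by simp [e] at hK
    obtain ⟨⟨b, hb⟩, b1⟩ := ne_bot_iff_exists_ne_one.1 this
    rwa [inj ((two H hH a ha a1).trans (two K hK b hb fun e => b1 (Subtype.ext e)).symm)]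
  obtain ⟨-, n, ⟨ψ⟩⟩ := (Cfsg.Agent.S0016.result 2 T.isPGroup' fun H K hH hK =>
    le_antisymm (le H K hH hK) (le K H hK hH)).resolve_left nc
  rcases n with _ | n
  · exact (nc (ψ.isCyclic.2 QuaternionGroup.quaternionGroup_one_isCyclic)).elim
  let χ : QuaternionGroup (2 ^ (n + 1)) →* Matrix ι ι F := φ.comp ψ.symm.toMonoidHom
  have o4 : ∀ i, χ (.xa i) * χ (.xa i) = -1 := fun i => by
    have o := QuaternionGroup.orderOf_xa (n := 2 ^ (n + 1)) i
    rw [← map_mul]
    refine hn _ ?_ fun e => ?_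
    · change ψ.symm _ * ψ.symm _ = 1
      rw [← map_mul, ← map_one ψ.symm, ← QuaternionGroup.xa_pow_four i]
      simp only [pow_succ, pow_zero, one_mul, mul_assoc]
    · have : QuaternionGroup.xa i ^ 2 = 1 := ψ.symm.injective (by rw [pow_two, map_one]; exact e)
      have := orderOf_dvd_of_pow_eq_one this
      rw [o] at this
      omega
  obtain ⟨I, hI⟩ : ∃ I, χ (.xa 0) = I := ⟨_, rfl⟩
  obtain ⟨J, hJ⟩ : ∃ J, χ (.xa (2 ^ n : ℕ)) = J := ⟨_, rfl⟩
  have II : I * I = -1 := hI ▸ o4 _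
  have JJ : J * J = -1 := hJ ▸ o4 _
  have JI : J * I = -(I * J) := by
    have e : J * I = I * I * (I * J) := by
      rw [← hI, ← hJ, ← map_mul, ← map_mul, ← map_mul, ← map_mul]
      congr 1
      simp only [QuaternionGroup.xa_mul_xa, QuaternionGroup.a_mul_a, QuaternionGroup.a.injEq]
      have : ((2 * 2 ^ (n + 1) : ℕ) : ZMod (2 * 2 ^ (n + 1))) = 0 := ZMod.natCast_self _
      push_cast at this ⊢
      linear_combination -this
    rw [e, II, neg_mul, one_mul]
  obtain ⟨p, hp⟩ := CharP.exists F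
  have : NeZero p := ⟨CharP.char_ne_zero_of_finite F p⟩
  obtain ⟨α, β, hαβ⟩ := CharP.sq_add_sq F p (-1)
  have e : ((α : F) • I + (β : F) • J) * ((α : F) • I + (β : F) • J) = 1 := by
    simp only [add_mul, mul_add, smul_mul_smul_comm, II, JJ, JI]
    have : ((α : F) * α + β * β) • (-1 : Matrix ι ι F) = 1 := by
      rw [← pow_two, ← pow_two, hαβ]; simp
    refine Eq.trans ?_ this
    module
  obtain ⟨k1, k2⟩ := nu_two h4 h2 (ν := (α : F) • I + (β : F) • J) (k := I * J)
    (by rw [mul_assoc, ← mul_assoc J, JI, neg_mul, mul_neg, mul_assoc, JJ, ← mul_assoc, II]; simp) (by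
      have e1 : I * J * I = -(I * (I * J)) := by rw [mul_assoc, JI, mul_neg]
      have e2 : J * (I * J) = -(I * J * J) := by rw [← mul_assoc, JI, neg_mul]
      rw [mul_add, add_mul, mul_smul_comm, mul_smul_comm, smul_mul_assoc, smul_mul_assoc, e1, e2]
      module)
  refine ⟨_, e, k1, k2, fun g hg => ?_⟩
  rw [mul_add, add_mul, mul_smul_comm, mul_smul_comm, smul_mul_assoc, smul_mul_assoc, ← hI, ← hJ]
  exact congrArg₂ (· + ·) (congrArg _ (cm g hg _)) (congrArg _ (cm g hg _))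

theorem ab11 (hι : Fintype.card ι ≤ 6) (h11 : (11 : F) ≠ 0) {P : Subgroup (GL ι F)}
    (hP : IsPGroup 11 P) : ∀ a ∈ P, ∀ b ∈ P, a * b = b * a := fun a ha b hb =>
  congrArg Subtype.val (comm_of_lt ((nat ι F).comp P.subtype) (nat_inj.comp P.subtype_injective) (by norm_num)
    (by exact_mod_cast h11) hP (by rw [Module.finrank_fintype_fun_eq_card]; omega) ⟨a, ha⟩ ⟨b, hb⟩)

theorem cent11 (hι : Fintype.card ι ≤ 6) (h11 : (11 : F) ≠ 0) {q : ℕ} (hq : q.Prime)
    (hq0 : (q : F) ≠ 0) {Q : Subgroup (GL ι F)} (hQ : IsPGroup q Q) {g : GL ι F} {n : ℕ} (hg : g ^ 11 ^ n = 1)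
    (hn : g ∈ normalizer (Q : Set (GL ι F))) : ∀ x ∈ Q, g * x = x * g := fun x hx => by
  by_cases h : 11 = q
  · subst h
    have : Fact (Nat.Prime 11) := ⟨hq⟩
    exact ab11 hι h11 (IsPGroup.to_sup_of_normal_left' hQ (Tech.isPGroup_zpowers_of_pow hg) (zpowers_le_of_mem hn)) g
      (mem_sup_right (mem_zpowers g)) x (mem_sup_left hx)
  · exact nat_inj (by
      rw [map_mul, map_mul]
      exact small (nat ι F) hq (by norm_num) h hq0 (Or.inl (by rw [Module.finrank_fintype_fun_eq_card]; omega)) hQ n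
        g hn hg x hx)

theorem sec115 (h2 : (2 : F) ≠ 0) (h7 : (11 : F) ≠ 0) {ν : Matrix ι ι F} (hν : ν * ν = 1)
    (hp : Module.finrank F (LinearMap.ker (toLin' (ν - 1))) ≤ 4)
    (hm : Module.finrank F (LinearMap.ker (toLin' (ν + 1))) ≤ 4) {C : Subgroup (GL ι F)}
    (hC : ∀ g ∈ C, g.1 * ν = ν * g.1) {A : Type*} [Group A] (π : C →* A) {a c : C} (ha : π a ^ 11 = 1)
    (hc : π c * π a * (π c)⁻¹ = π a ^ 5) : π a = 1 := by
  have : Fact (Nat.Prime 11) := ⟨by norm_num⟩
  have key : ∀ {P : Subgroup C}, IsPGroup 11 P → ∀ n, ∀ m ∈ normalizer (P : Set C), m ^ 5 ^ n = 1 → ∀ g ∈ P,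
      m * g = g * m := fun {P} hP n m hm' h3 g hg => by
    have h1 : ∀ μ : Matrix ι ι F, (∀ g ∈ C, g.1 * μ = μ * g.1) → Module.finrank F (LinearMap.ker (toLin' μ)) ≤ 4 →
        ∀ v, μ *ᵥ v = 0 → (m * g).1.1 *ᵥ v = (g * m).1.1 *ᵥ v := fun μ hμ hd v hv => by
      let ρ := Representation.subrepresentation ((nat ι F).comp C.subtype) (LinearMap.ker (toLin' μ))
        fun g w (hw : μ *ᵥ w = 0) => show μ *ᵥ (g.1.1 *ᵥ w) = 0 by
          rw [mulVec_mulVec, ← hμ _ g.2, ← mulVec_mulVec, hw, mulVec_zero]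
      have := small ρ (by norm_num) Nat.prime_five (by norm_num) (by exact_mod_cast h7) (Or.inr ⟨by omega, by norm_num⟩) hP n m hm' h3 g hg
      rw [← map_mul, ← map_mul] at this
      exact congrArg Subtype.val (LinearMap.congr_fun this ⟨v, hv⟩)
    refine Subtype.ext (Units.ext (toLin'.injective (LinearMap.ext fun v => smul_right_injective _ h2 ?_)))
    have e1 := h1 (ν - 1) (fun g hg => by rw [mul_sub, sub_mul, hC g hg, mul_one, one_mul]) hp ((ν + 1) *ᵥ v)
      (by rw [mulVec_mulVec, mul_add, sub_mul, hν]; simp)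
    have e2 := h1 (ν + 1) (fun g hg => by rw [mul_add, add_mul, hC g hg, mul_one, one_mul]) hm ((ν - 1) *ᵥ v)
      (by rw [mulVec_mulVec, mul_sub, add_mul, hν, add_comm ν]; simp)
    simp only [add_mulVec, sub_mulVec, one_mulVec, mulVec_add, mulVec_sub] at e1 e2
    simp only [toLin'_apply, two_smul]
    linear_combination e1 - e2
  obtain ⟨k, n, hk⟩ := exists_part (p := 11) (by norm_num) a
  have e1 : π (a ^ (11 * k + 1)) = π a := by rw [map_pow, pow_succ, pow_mul, ha, one_pow, one_mul]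
  obtain ⟨P, hP, h1⟩ := Tech.exists_isSylowIn_ge (Tech.isPGroup_zpowers_of_pow hk) (H := (zpowers (π a)).comap π)
    (zpowers_le_of_mem (show π _ ∈ zpowers (π a) from e1.symm ▸ mem_zpowers _))
  obtain ⟨d, ⟨j, hj⟩, hn⟩ := hP.frattini (g := c) (mem_normalizer_fintype (by
    rintro y ⟨j, hj⟩
    refine ⟨5 * j, ?_⟩
    simp only [map_mul, map_inv, ← hj]
    rw [← conj_zpow, hc, ← zpow_natCast, ← _root_.zpow_mul]; rfl))
  obtain ⟨l, m, hl⟩ := exists_part Nat.prime_five (d * c)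
  have e2 : ∀ i, π (d * c) ^ i * π a * (π (d * c) ^ i)⁻¹ = π a ^ 5 ^ i := fun i => by
    induction i with
    | zero => simp
    | succ i ih =>
      rw [pow_succ', show π (d * c) * π (d * c) ^ i * π a * (π (d * c) * π (d * c) ^ i)⁻¹ =
        π (d * c) * (π (d * c) ^ i * π a * (π (d * c) ^ i)⁻¹) * (π (d * c))⁻¹ by group, ih, ← conj_pow, map_mul, ← hj,
        show π a ^ j * π c * π a * (π a ^ j * π c)⁻¹ = π a ^ j * (π c * π a * (π c)⁻¹) * (π a ^ j)⁻¹ by group, hc,
        pow_succ' 5, pow_mul]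
      congr 1
      group
  have e3 := congrArg π (key hP.pgroup m _ (pow_mem hn _) hl _ (h1 (mem_zpowers _)))
  rw [map_mul, map_mul, e1, map_pow, ← mul_inv_eq_iff_eq_mul, e2, pow_eq_pow_mod _ ha, pow_succ, pow_mul, Nat.mul_mod,
    Nat.pow_mod] at e3
  have e4 : π a ^ 4 = 1 := by
    have : π a ^ 5 = π a := by simpa using e3
    rwa [pow_succ, mul_eq_right] at this
  exact (pow_eq_one_iff_of_coprime (by norm_num : Nat.Coprime 11 4)).1 ⟨ha, e4⟩

end CfsgLib.Wl11
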